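import Cfsg.Agent.H5.CovB

/-! Coverings of `SU_3(3^a)` by two classes of subgroups. -/

set_option autoImplicit false

namespace Cfsg.Agent.H5

open Subgroup Module Polynomial H1

variable {F : Type*} [Field F] {σ : F →+* F} {q : ℕ} {V : Type*} [AddCommGroup V] [Module F V]
  [FiniteDimensional F V] {G : Type*} [Group G] {B : Sesq σ V} {ε : F}

theorem irr_cubic {t : F} (ht : ∀ x : F, x ^ 3 - x ≠ t) : (X ^ 3 - X - C t : F[X]).Monic ∧
    Irreducible (X ^ 3 - X - C t : F[X]) ∧ (X ^ 3 - X - C t : F[X]).natDegree = 3 := by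
  have hd : (X ^ 3 - X - C t : F[X]).natDegree = 3 := by compute_degree!
  have hm : (X ^ 3 - X - C t : F[X]).Monic := by monicity!
  refine ⟨hm, (hm.irreducible_iff_roots_eq_zero_of_degree_le_three (by omega) hd.le).2
    (Multiset.eq_zero_of_forall_notMem fun x hx => ht x ?_), hd⟩
  simpa [sub_eq_zero] using (mem_roots hm.ne_zero).1 hx

omit [FiniteDimensional F V] in
theorem aeval_cubic {J : End F V} {t : F} : aeval J (X ^ 3 - X - C t : F[X]) = 0 ↔ J ^ 3 - J = t • 1 := by
  simp [sub_eq_zero, Algebra.algebraMap_eq_smul_one]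

theorem exists_not_wp [Finite F] [CharP F 3] : ∃ t : F, ∀ x : F, x ^ 3 - x ≠ t := by
  by_contra h
  push Not at h
  have := Finite.injective_iff_surjective.2 (show Function.Surjective fun x : F => x ^ 3 - x from h)
  exact zero_ne_one (this (a₁ := 0) (a₂ := 1) (by simp))

variable [Fintype F]

theorem UF.exists_not_wp (h : UF σ q) [CharP F 3] :
    ∃ β : F, σ β = β ∧ ∀ x : F, x ^ 3 - x ≠ 2 * β ^ 3 := by
  have : Fact (Nat.Prime 3) := ⟨Nat.prime_three⟩
  have h3 : (3 : F) = 0 := CharP.cast_eq_zero F 3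
  obtain ⟨t, ht⟩ := H5.exists_not_wp (F := F)
  obtain ⟨-, k, -, rfl⟩ := exists_char_pow h.card 3
  have key : ∀ j : ℕ, ∃ y : F, y ^ 3 - y = t ^ 3 ^ j - t := fun j => by
    induction j with
    | zero => exact ⟨0, by simp⟩
    | succ j ih =>
      obtain ⟨y, hy⟩ := ih
      exact ⟨y + t ^ 3 ^ j, by rw [add_pow_char, pow_succ 3, pow_mul]; linear_combination hy⟩
  obtain ⟨y, hy⟩ := key k
  obtain ⟨β, hβ⟩ := surjective_frobenius F 3 (-(t + σ t))
  rw [frobenius_def] at hβ
  refine ⟨β, frobenius_inj F 3 ?_, fun x hx => ht (y - x) ?_⟩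
  · rw [frobenius_def, frobenius_def, ← map_pow, hβ, map_neg, map_add, h.invol, add_comm]
  · rw [← h.apply] at hy
    rw [sub_pow_char]
    linear_combination hy - hx - 2 * hβ + σ t * h3

theorem UF.exists_isom_selfadj (h : UF σ q) (hB : IsEps B ε) {J J' : End F V}
    (h1 : ∀ u v, B (J u) v = B u (J v)) (h2 : ∀ u v, B (J' u) v = B u (J' v))
    (e1 : ∀ v (c : F), J v = c • v → v = 0) (e2 : ∀ v (c : F), J' v = c • v → v = 0)
    (hs : H4.Sim J J') : ∃ y, Pres B y ∧ y * J = J' * y := by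
  obtain ⟨ω, hω⟩ := h.exists_ne
  have key : ∀ {J : End F V}, (∀ u v, B (J u) v = B u (J v)) → (∀ v (c : F), J v = c • v → v = 0) →
      ∃ R : End F V, R * (J - σ ω • 1) = 1 ∧ (J - σ ω • 1) * R = 1 ∧ Pres B (1 + (σ ω - ω) • R) := by
    intro J h1 e1
    obtain ⟨⟨_, R, r1, r2⟩, rfl⟩ : IsUnit (J - σ ω • 1) := (LinearMap.isUnit_iff_ker_eq_bot _).2
      (eq_bot_iff.2 fun v hv => e1 v _ (sub_eq_zero.1 hv))
    refine ⟨R, r2, r1, fun u v => ?_⟩
    rw [show u = (J - σ ω • 1 : End F V) (R u) from (LinearMap.congr_fun r1 u).symm,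
      show v = (J - σ ω • 1 : End F V) (R v) from (LinearMap.congr_fun r1 v).symm]
    simp only [LinearMap.add_apply, LinearMap.smul_apply, ← End.mul_apply R, r2]
    simp [h1, h.invol]
    ring
  obtain ⟨R, r1, r2, r3⟩ := key h1 e1
  obtain ⟨R', s1, s2, s3⟩ := key h2 e2
  have tr : ∀ {x : End F V}, x * J = J' * x → x * R = R' * x := fun {x} hx => by
    rw [← one_mul (x * R), ← s1, mul_assoc, ← mul_assoc _ x, show (J' - σ ω • 1) * x = x * (J - σ ω • 1) by
      simp [sub_mul, mul_sub, hx], mul_assoc, r2, mul_one]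
  obtain ⟨x, hx⟩ := hs
  obtain ⟨y, y1, y2⟩ := h.isim_of_sim hB hB (hB.toIsom _ r3) (hB.toIsom _ s3) ⟨x, fun v => by
    have := LinearMap.congr_fun (tr (x := x) (LinearMap.ext hx)) v
    change x ((1 + (σ ω - ω) • R : End F V) v) = (1 + (σ ω - ω) • R' : End F V) (x v)
    simpa [sub_eq_zero, hω] using congrArg ((σ ω - ω) • ·) this⟩
  have y3 : (y : End F V) * R = R' * y := LinearMap.ext fun v => by
    have : y ((1 + (σ ω - ω) • R : End F V) v) = (1 + (σ ω - ω) • R' : End F V) (y v) := y2 v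
    simpa [sub_eq_zero, hω] using this
  refine ⟨y, y1, ?_⟩
  have : (y : End F V) * (J - σ ω • 1) = (J' - σ ω • 1) * y := by
    generalize J - σ ω • 1 = A at r1
    generalize J' - σ ω • 1 = A' at s2
    rw [← one_mul (_ * A), ← s2, mul_assoc, ← mul_assoc R', ← y3, mul_assoc, r1, mul_one]
  simpa [sub_mul, mul_sub] using this

omit [Fintype F] in
theorem selfadj_of_cubic [CharP F 3] (hB : IsEps B ε) (hd : finrank F V = 3) {g : End F V} (hg : Pres B g)
    {t : F} (ht : σ t = t) (ht' : ∀ x : F, x ^ 3 - x ≠ t) {p : F[X]}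
    (hp : aeval g p ^ 3 - aeval g p = t • 1) (u v : V) : B (aeval g p u) v = B u (aeval g p v) := by
  have : Fact (Nat.Prime 3) := ⟨Nat.prime_three⟩
  have : Nontrivial V := nontrivial_of_finrank_pos (R := F) (by omega)
  have := charP_of_injective_algebraMap (algebraMap F (End F V)).injective 3
  set J := aeval g p
  set S := hB.adj J
  have cJ : Commute J S := commute_aeval_left (hg.commute_adj hB (mul_aeval_comm g p)) p
  have hS : S ^ 3 - S = t • 1 := LinearMap.ext fun x => hB.ext_left fun y => by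
    have := congrArg (B x) (LinearMap.congr_fun hp y)
    simpa [S, pow_three, hB.adj_left, ht] using this
  have hD : (S - J) ^ 3 = S - J := by
    rw [sub_pow_char_of_commute _ cJ.symm]
    linear_combination (norm := abel) hS - hp
  have sk : ∀ x y, B ((S - J) x) y = -B x ((S - J) y) := fun x y => by
    simp [S, hB.adj_left, hB.adj_right]
  have key : ∀ c : F, c = 1 ∨ c = -1 → ∀ v, (S - J - c • 1 : End F V) v = 0 → v = 0 := fun c hc v hv => by
    by_contra v0
    have i1 : LinearMap.ker (S - J - c • 1) ≤ perp B (LinearMap.ker (S - J - c • 1)) := fun x hx y hy => by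
      have := sk x y
      rw [show (S - J) x = c • x from sub_eq_zero.1 hx, show (S - J) y = c • y from sub_eq_zero.1 hy] at this
      have h3 : (3 : F) = 0 := CharP.cast_eq_zero F 3
      rcases hc with rfl | rfl <;> simp at this
      · linear_combination -this + B x y * h3
      · linear_combination this + B x y * h3
    have := hB.two_mul_le i1
    obtain ⟨a, ha⟩ := exists_eigen_of_le_one (W := LinearMap.ker (S - J - c • 1)) (by omega) hv v0 (y := J v) (by
      rw [LinearMap.mem_ker, ← End.mul_apply, ← ((cJ.sub_right (.refl J)).sub_right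
        ((Commute.one_right J).smul_right c)).eq, End.mul_apply, hv, map_zero])
    obtain ⟨-, m2, m3⟩ := irr_cubic ht'
    exact v0 (no_eigen_of_irr m2 (by omega) (aeval_cubic.2 hp) v a ha)
  have : (S - J) u = 0 := key 1 (.inl rfl) _ (key (-1) (.inr rfl) _ (by
    have := LinearMap.congr_fun hD u
    generalize S - J = D at this
    simp only [pow_three, End.mul_apply] at this
    simp [this]))
  rw [← hB.adj_left, show hB.adj J u = J u from sub_eq_zero.1 this]

theorem UF.reg_unip_three [CharP F 3] (h : UF σ q) (hB : IsEps B 1) (hd : finrank F V = 3) {g : End F V}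
    (hg : Pres B g) (h1 : LinearMap.det g = 1) (hn : ¬ ∃ v, B v v ≠ 0 ∧ ∃ c : F, g v = c • v)
    (he : ∃ v, v ≠ 0 ∧ ∃ c : F, g v = c • v) : IsNilpotent (g - 1) ∧ H4.Reg g := by
  have : Fact (Nat.Prime 3) := ⟨Nat.prime_three⟩
  have : Nontrivial V := nontrivial_of_finrank_pos (R := F) (by omega)
  have := charP_of_injective_algebraMap (algebraMap F (End F V)).injective 3
  obtain ⟨e, e0, l, ge⟩ := he
  have ee : B e e = 0 := by_contra fun h => hn ⟨e, h, l, ge⟩
  have d1 := hB.finrank_perp (F ∙ e)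
  rw [finrank_span_singleton e0] at d1
  obtain ⟨w, hw, we⟩ := exists_not_mem_of_finrank_lt (S := F ∙ e) (T := perp B (F ∙ e))
    (by rw [finrank_span_singleton e0]; omega)
  have w1 : B w e = 0 := hw e (Submodule.mem_span_singleton_self e)
  have ww : B w w ≠ 0 := fun h => by
    obtain ⟨c, rfl⟩ := hB.parallel_of_iso hd e0 ee h w1
    exact we (Submodule.smul_mem _ _ (Submodule.mem_span_singleton_self e))
  have sp : (F ∙ e) ⊔ (F ∙ w) = perp B (F ∙ e) := Submodule.eq_of_le_of_finrank_eq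
    (by simp [mem_perp_span, ee, w1]) (by rw [finrank_sup_two e0 we]; omega)
  have dec : ∀ x ∈ perp B (F ∙ e), ∃ a b : F, x = a • w + b • e := fun x hx => by
    rw [← sp] at hx
    obtain ⟨_, ha, _, hb, rfl⟩ := Submodule.mem_sup.1 hx
    obtain ⟨a, rfl⟩ := Submodule.mem_span_singleton.1 ha
    obtain ⟨b, rfl⟩ := Submodule.mem_span_singleton.1 hb
    exact ⟨b, a, add_comm _ _⟩
  obtain ⟨μ, a, gw⟩ := dec _ (hg.map_perp hB (span_inv ge) w hw)
  obtain rfl : μ = l := by_contra fun hne => hn (aniso_eigen hB ee w1 ww ge gw hne)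
  have n1 : μ * σ μ = 1 := mul_right_cancel₀ ww (by
    have := hg w w
    rw [gw] at this
    simp [ee, w1, hB.refl w1] at this
    linear_combination this)
  have n3 : (g - μ • 1) ^ 3 = 0 := LinearMap.ext fun x => by
    obtain ⟨b, c, hx⟩ := dec (g x - μ • x) (mem_perp_span.2 fun _ h =>
      h ▸ perp_of_eigen hB (hB.toIsom g hg) n1 ge x)
    simp only [pow_three, End.mul_apply]
    rw [show (g - μ • 1 : End F V) x = _ from hx]
    simp [gw, ge, smul_smul, mul_comm]
  obtain rfl : μ = 1 := by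
    rw [sub_pow_char_of_commute _ ((Commute.one_right g).smul_right μ), sub_eq_zero] at n3
    have := congrArg LinearMap.det n3
    rw [map_pow, h1, _root_.smul_pow, one_pow, one_pow, LinearMap.det_smul, map_one, hd, mul_one] at this
    exact frobenius_inj F 3 (frobenius_inj F 3 (by simp [frobenius_def, ← this]))
  refine ⟨⟨3, by simpa using n3⟩, ?_⟩
  have := hB.two_mul_le (W := LinearMap.ker (g - 1)) (by_contra fun h2 => by
    obtain ⟨v, h3, h4⟩ := h.exists_aniso h2
    exact hn ⟨v, h4, 1, by simpa [sub_eq_zero] using h3⟩)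
  unfold H4.Reg
  omega

theorem UF.cov_su3 [CharP F 3] {act : G →* End F (Fin 3 → F)} (h : UF σ q)
    (L : LG act fun f => Pres (stdU (Fin 3) σ) f ∧ LinearMap.det f = 1) : Cov2 (G ⧸ center G) := by
  have : Fact (Nat.Prime 3) := ⟨Nat.prime_three⟩
  have h3 : (3 : F) = 0 := CharP.cast_eq_zero F 3
  have hB := h.isEps_std (Fin 3)
  have hd : finrank F (Fin 3 → F) = 3 := by simp
  obtain ⟨e, he, hH⟩ := L.stab_aniso_ne h hB (by omega)
  obtain ⟨β, b1, b2⟩ := h.exists_not_wp
  obtain ⟨m1, m2, m3⟩ := irr_cubic b2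
  let P : End F (Fin 3 → F) := Matrix.toLin' !![0, 0, 1; 1, 0, 0; 0, 1, 0]
  let J : End F (Fin 3 → F) := Matrix.toLin' !![0, β, β; β, 1, β; β, β, -1]
  have P1 : ∀ v, P v = ![v 2, v 0, v 1] := fun v => by
    ext i; fin_cases i <;> simp [P, Matrix.mulVec, dotProduct, Fin.sum_univ_three]
  have J1 : ∀ v, J v = ![β * v 1 + β * v 2, β * v 0 + v 1 + β * v 2, β * v 0 + β * v 1 - v 2] := fun v => by
    ext i; fin_cases i <;> simp [J, Matrix.mulVec, dotProduct, Fin.sum_univ_three, sub_eq_add_neg]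
  have P2 : Pres (stdU (Fin 3) σ) P := fun u v => by simp [P1, stdU_apply, Fin.sum_univ_three]; ring
  have P3 : P * J = (J + (-1 : F) • 1) * P := LinearMap.ext fun v => by
    ext i; fin_cases i <;> simp [P1, J1] <;> grind
  have J2 : ∀ u v, stdU (Fin 3) σ (J u) v = stdU (Fin 3) σ u (J v) := fun u v => by
    simp [J1, stdU_apply, Fin.sum_univ_three, b1]; ring
  have J3 : J ^ 3 - J = (2 * β ^ 3) • 1 := LinearMap.ext fun v => by
    ext i; fin_cases i <;> simp [pow_three, J1] <;> grind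
  have J4 := no_eigen_of_irr m2 (by omega) (aeval_cubic.2 J3)
  have adj : ∀ y, Pres (stdU (Fin 3) σ) y → ∃ (x : G) (c : F), act x = c • y := fun y hy => by
    have n := hy.det_norm hB
    obtain ⟨c, hc⟩ := surjective_frobenius F 3 (σ (LinearMap.det y))
    rw [frobenius_def] at hc
    have n' : c * σ c = 1 := frobenius_inj F 3 (by
      rw [frobenius_def, mul_pow, ← map_pow, hc, h.invol, mul_comm, n, map_one])
    obtain ⟨x, hx⟩ := L.surj (c • y) ⟨fun u v => by simp [hy u v]; linear_combination stdU (Fin 3) σ u v * n',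
      by rw [LinearMap.det_smul, hd, hc, mul_comm, n]⟩
    exact ⟨x, c, hx⟩
  obtain ⟨a, -, a0, aa⟩ := exists_iso_vec hB h ⊤ (by simp)
  obtain ⟨b, -, -, ba⟩ := exists_hyp hB h (W := ⊥) disjoint_bot_left (e := a) (fun _ h => by simp_all) a0 aa
  obtain ⟨c, c0, hc⟩ := h.exists_trace_zero
  obtain ⟨t, ht⟩ := L.surj (suAct _ (ut hB a c)) ⟨suAct_pres _, suAct_det _⟩
  refine cov_quot hH (shift_ne_top (S := ⊤) (g := t) (x₀ := b) J4 (.inr hd.ge)
    (fun x => by rw [ht, ut_apply hB aa hc]) a0 (by simp [ba, c0])) (L.center_le_stab _)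
    (L.center_le_shift _ _) fun g => ?_
  by_cases hn : ∃ v, stdU (Fin 3) σ v v ≠ 0 ∧ ∃ c : F, act g v = c • v
  · exact (L.conj_aniso h hB he hn).imp fun _ => .inl
  rcases eigen_or_noroot (act g) with hg | hr
  · obtain ⟨u1, u2⟩ := h.reg_unip_three hB hd (L.mem g).1 (L.mem g).2 hn hg
    obtain ⟨y, y1, y2⟩ := h.isim_of_sim hB hB (hB.toIsom _ (L.mem g).1) (hB.toIsom _ P2)
      (H4.sim_of_reg_unip rfl u1 ⟨3, LinearMap.ext fun v => by
        change ((P - 1) ^ 3 : End F _) v = 0
        ext i; fin_cases i <;> simp [pow_three, P1, Matrix.vecHead, Matrix.vecTail] <;> grind⟩ u2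
        (H4.reg_of_span ![1, 1, 1] fun v hv => ⟨v 0, by
          have hv : P v = v := hv
          rw [P1] at hv
          have h1 : v 0 = v 1 := congrFun hv 1
          have h2 : v 1 = v 2 := congrFun hv 2
          ext i; fin_cases i <;> simp [h1, h2]⟩))
    obtain ⟨x, c, hx⟩ := adj y y1
    have : act (x * g * x⁻¹) = P := LinearMap.ext fun v => by
      obtain ⟨w, rfl⟩ : ∃ w, act x w = v := ⟨_, act_apply_inv act x v⟩
      rw [act_mul_apply, act_inv_apply, act_mul_apply, hx, LinearMap.smul_apply, LinearMap.smul_apply,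
        map_smul]
      exact congrArg (c • ·) (y2 w)
    exact ⟨x, .inr ⟨-1, trivial, by rw [this, P3]⟩⟩
  obtain ⟨p, hp⟩ := exists_aeval_root m2 (act g).charpoly_monic.ne_zero (act g).aeval_self_charpoly
    fun f hf hd' => by
      have := factor_natDegree (act g).charpoly_monic.ne_zero hr hf hd'
      rw [LinearMap.charpoly_natDegree] at this
      rw [m3]; omega
  obtain ⟨y, y1, y2⟩ := h.exists_isom_selfadj hB (selfadj_of_cubic hB hd (L.mem g).1 (by simp [b1, map_ofNat]) b2
    (aeval_cubic.1 hp)) J2 (no_eigen_of_irr m2 (by omega) hp) J4 (sim_of_irr m1 m2 hp (aeval_cubic.2 J3))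
  obtain ⟨x, c, hx⟩ := adj y y1
  exact ⟨x, .inr (conj_mem_shift (J := aeval (act g) p) (zero_mem _)
    (by simpa using mul_aeval_comm (act g) p) (by rw [hx, smul_mul_assoc, y2, mul_smul_comm]))⟩

end Cfsg.Agent.H5
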