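import Cfsg.Agent.H5.CovC

/-! Coverings of `Sp_{2m}(2^a)` by two classes of orthogonal groups. -/

set_option autoImplicit false

namespace Cfsg.Agent.H5

open Subgroup Module Polynomial H1

theorem cov_of {G α β : Type*} [Group G] (Z : Subgroup G) (A : α → Prop) (A' : β → Prop)
    (S : α → Subgroup G) (S' : β → Subgroup G) (h1 : ∀ a, A a → S a ≠ ⊤ ∧ Z ≤ S a)
    (h2 : ∀ a, A' a → S' a ≠ ⊤ ∧ Z ≤ S' a)
    (t1 : ∀ a b, A a → A b → ∀ g ∈ S a, ∃ x, x * g * x⁻¹ ∈ S b)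
    (t2 : ∀ a b, A' a → A' b → ∀ g ∈ S' a, ∃ x, x * g * x⁻¹ ∈ S' b)
    (h : ∀ g, (∃ a, A a ∧ g ∈ S a) ∨ ∃ a, A' a ∧ g ∈ S' a) : ∃ H K : Subgroup G, H ≠ ⊤ ∧ K ≠ ⊤ ∧
      Z ≤ H ∧ Z ≤ K ∧ ∀ g : G, ∃ x : G, x * g * x⁻¹ ∈ H ∨ x * g * x⁻¹ ∈ K := by
  by_cases e1 : ∃ a, A a
  · obtain ⟨a, ha⟩ := e1
    by_cases e2 : ∃ a, A' a
    · obtain ⟨b, hb⟩ := e2
      exact ⟨_, _, (h1 a ha).1, (h2 b hb).1, (h1 a ha).2, (h2 b hb).2, fun g => (h g).elim
        (fun ⟨c, hc, hg⟩ => (t1 c a hc ha g hg).imp fun _ => .inl)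
        fun ⟨c, hc, hg⟩ => (t2 c b hc hb g hg).imp fun _ => .inr⟩
    · exact ⟨_, _, (h1 a ha).1, (h1 a ha).1, (h1 a ha).2, (h1 a ha).2, fun g => (h g).elim
        (fun ⟨c, hc, hg⟩ => (t1 c a hc ha g hg).imp fun _ => .inl) fun ⟨c, hc, _⟩ => absurd ⟨c, hc⟩ e2⟩
  · obtain ⟨b, hb, -⟩ := (h 1).resolve_left fun ⟨c, hc, _⟩ => e1 ⟨c, hc⟩
    exact ⟨_, _, (h2 b hb).1, (h2 b hb).1, (h2 b hb).2, (h2 b hb).2, fun g => (h g).elim
      (fun ⟨c, hc, _⟩ => absurd ⟨c, hc⟩ e1) fun ⟨c, hc, hg⟩ => (t2 c b hc hb g hg).imp fun _ => .inl⟩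

variable {F : Type*} [Field F] {V : Type*} [AddCommGroup V] [Module F V]
  [FiniteDimensional F V] {G : Type*} [Group G] {B : Bil F V}

theorem exists_mul_eq_one_of_ne {a : F} (h : a ≠ 0) : ∃ r, a * r = 1 := ⟨_, mul_inv_cancel₀ h⟩

theorem wp_add [Finite F] [CharP F 2] {u v : F} (hu : ¬ ∃ s, s ^ 2 + s = u) (hv : ¬ ∃ s, s ^ 2 + s = v) :
    ∃ s, s ^ 2 + s = u + v := by
  let φ : F →+ F := AddMonoidHom.mk' (fun s => s ^ 2 + s) fun a b => by
    rw [CharTwo.add_sq]; ring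
  have h1 : Nat.card φ.ker = 2 := by
    rw [← Set.ncard_pair (zero_ne_one (α := F)), ← Nat.card_coe_set_eq]
    refine Nat.card_congr (Equiv.subtypeEquivRight fun x => ?_)
    change x ^ 2 + x = 0 ↔ x = 0 ∨ x = 1
    rw [show x ^ 2 + x = x * (x - 1) by rw [CharTwo.sub_eq_add]; ring, mul_eq_zero, sub_eq_zero]
  have h2 : φ.range.index = 2 := by
    have a1 := φ.range.index_mul_card
    have a2 := φ.ker.index_mul_card
    rw [AddSubgroup.index_ker, h1, mul_comm, ← a1] at a2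
    exact (Nat.eq_of_mul_eq_mul_right Nat.card_pos a2).symm
  exact (AddSubgroup.add_mem_iff_of_index_two h2).2 (iff_of_false hu hv)

omit [FiniteDimensional F V] in
theorem exists_comp_of_ker_le {W : Type*} [AddCommGroup W] [Module F W] (f : V →ₗ[F] W) (φ : V →ₗ[F] F)
    (h : ∀ v, f v = 0 → φ v = 0) : ∃ ψ : W →ₗ[F] F, ∀ v, ψ (f v) = φ v := by
  obtain ⟨ψ, hψ⟩ : φ ∈ LinearMap.range f.dualMap := by
    rw [LinearMap.range_dualMap_eq_dualAnnihilator_ker]
    exact (Submodule.mem_dualAnnihilator _).2 h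
  exact ⟨ψ, LinearMap.congr_fun hψ⟩

/-- The stabiliser of a function. -/
def stabFun {α : Type*} (act : G →* End F V) (Q : V → α) : Subgroup G where
  carrier := {g | ∀ v, Q (act g v) = Q v}
  mul_mem' := fun {a b} ha hb v => by rw [act_mul_apply, ha, hb]
  one_mem' := fun v => by simp
  inv_mem' := fun {a} ha v => by rw [← ha, act_apply_inv]

/-- Quadratic forms with polar form `B`. -/
structure QPol (B : Bil F V) (Q : V → F) : Prop where
  add : ∀ x y, Q (x + y) = Q x + Q y + B x y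
  smul : ∀ (c : F) x, Q (c • x) = c ^ 2 * Q x

omit [FiniteDimensional F V] in
theorem QPol.shift [CharP F 2] {Q : V → F} (h : QPol B Q) (a : V) : QPol B fun x => Q x + B a x ^ 2 :=
  ⟨fun x y => by rw [h.add, map_add, CharTwo.add_sq]; ring, fun c x => by rw [h.smul, map_smul, smul_eq_mul]; ring⟩

theorem QPol.transv (hB : IsSp B) {Q : V → F} (h : QPol B Q) (a x : V) (c : F) :
    Q ((hB.transv a c).1 x) = Q x + (c ^ 2 * Q a + c) * B a x ^ 2 := by
  rw [hB.transv_apply, h.add, h.smul, map_smul, hB.skew x a, smul_eq_mul]; ring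

theorem QPol.diff [Finite F] [CharP F 2] {Q Q' : V → F} (h : QPol B Q) (h' : QPol B Q') :
    ∃ φ : V →ₗ[F] F, ∀ x, φ x ^ 2 = Q x + Q' x := by
  have h2 : (2 : F) = 0 := CharP.cast_eq_zero F 2
  have key : ∀ x, (frobeniusEquiv F 2).symm x ^ 2 = x := frobenius_apply_frobeniusEquiv_symm F 2
  refine ⟨⟨⟨fun x => (frobeniusEquiv F 2).symm (Q x + Q' x), fun x y => ?_⟩, fun c x => ?_⟩, fun x => key _⟩
  · rw [← map_add, h.add, h'.add]; congr 1; linear_combination B x y * h2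
  · refine frobenius_inj F 2 ?_
    simp only [frobenius_def, key, RingHom.id_apply, smul_eq_mul, mul_pow, h.smul, h'.smul]; ring

theorem cov_sp_even [Finite F] [CharP F 2] {act : G →* End F V} (L : LG act (Pres B)) (hB : IsSp B)
    (hd : 3 ≤ finrank F V) {Q : V → F} (hQ : QPol B Q) : Cov2 (G ⧸ center G) := by
  have h2 : (2 : F) = 0 := CharP.cast_eq_zero F 2
  have : Nontrivial V := nontrivial_of_finrank_pos (R := F) (by omega)
  obtain ⟨e, he⟩ := exists_ne (0 : V)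
  obtain ⟨f, hf⟩ := hB.exists_pair he
  have h1 : ∀ a, stabFun act (fun x => Q x + B a x ^ 2) ≠ ⊤ ∧
      center G ≤ stabFun act fun x => Q x + B a x ^ 2 := fun a => by
    have hQ := hQ.shift a
    generalize (fun x => Q x + B a x ^ 2) = Q at hQ
    refine ⟨fun h => ?_, fun z hz v => ?_⟩
    · have key : ∀ w, w ≠ 0 → Q w + 1 = 0 := fun w hw => by
        obtain ⟨x, hx⟩ := hB.exists_pair hw
        obtain ⟨t, ht⟩ := L.surj _ (hB.transv w 1).2
        have : Q (act t x) = Q x := (h ▸ mem_top t : t ∈ stabFun act Q) x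
        rw [ht, LinearEquiv.coe_coe, hQ.transv, hB.skew x w, hx] at this
        linear_combination this
      have := hB.isEps.finrank_perp (F ∙ e)
      have := finrank_span_le (F := F) e
      obtain ⟨w, hw, we⟩ := exists_not_mem_of_finrank_lt (S := F ∙ e) (T := perp B (F ∙ e)) (by omega)
      have a1 := key w fun h => we (h ▸ zero_mem _)
      have a2 := key (w + e) fun h => we (eq_neg_of_add_eq_zero_left h ▸
        neg_mem (Submodule.mem_span_singleton_self e))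
      rw [hQ.add, hw e (Submodule.mem_span_singleton_self e)] at a2
      exact one_ne_zero (α := F) (by linear_combination a1 + key e he - a2)
    · obtain ⟨c, hc⟩ := L.cen z hz
      have := L.mem z f e
      simp only [hc, LinearMap.smul_apply, End.one_apply, map_smul, hf, smul_eq_mul] at this ⊢
      rw [hQ.smul]
      linear_combination Q v * this
  have t : ∀ a b, (∃ s, s ^ 2 + s = Q a + Q b) → ∀ g ∈ stabFun act fun x => Q x + B a x ^ 2,
      ∃ x, x * g * x⁻¹ ∈ stabFun act fun x => Q x + B b x ^ 2 := by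
    rintro a b ⟨s, hs⟩ g hg
    obtain ⟨c, hc⟩ : ∃ c, c ^ 2 * (Q (a + b) + B b (a + b) ^ 2) + c = 1 := by
      rw [hQ.add, map_add, hB.alt, hB.skew a b, ← hs]
      by_cases h : s ^ 2 + s + B a b + (-B a b + 0) ^ 2 = 0
      · exact ⟨1, by rw [h]; ring⟩
      · obtain ⟨r, hr⟩ := exists_mul_eq_one_of_ne h
        exact ⟨(s + B a b) * r, by grind⟩
    obtain ⟨x, hx⟩ := L.surj _ (hB.transv (a + b) c).2
    have key : ∀ v, Q (act x v) + B b (act x v) ^ 2 = Q v + B a v ^ 2 := fun v => by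
      rw [hx, LinearEquiv.coe_coe, (hQ.shift b).transv hB, hc, map_add, LinearMap.add_apply]
      linear_combination (B b v ^ 2 + B a v * B b v) * h2
    refine ⟨x, fun v => ?_⟩
    beta_reduce
    rw [act_mul_apply, act_mul_apply, key, show Q _ + _ = Q _ + _ from hg _, ← key, act_apply_inv]
  obtain ⟨H, K, a1, a2, a3, a4, a5⟩ := cov_of (center G) (fun a => ∃ s, s ^ 2 + s = Q a)
    (fun a => ¬ ∃ s, s ^ 2 + s = Q a) _ _ (fun a _ => h1 a) (fun a _ => h1 a)
    (fun a b ⟨s, hs⟩ ⟨r, hr⟩ => t a b ⟨s + r, by linear_combination hs + hr + s * r * h2⟩)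
    (fun a b ha hb => t a b (wp_add ha hb)) fun g => by
      obtain ⟨φ, hφ⟩ := hQ.diff (Q' := fun x => Q (act g x))
        ⟨fun x y => by rw [map_add, hQ.add, L.mem g], fun c x => by rw [map_smul, hQ.smul]⟩
      obtain ⟨ψ, hψ⟩ := exists_comp_of_ker_le (act g - 1) φ fun v hv => by
        have := hφ v
        rw [show act g v = v from sub_eq_zero.1 hv, CharTwo.add_self_eq_zero] at this
        exact pow_eq_zero_iff (by omega) |>.1 this
      obtain ⟨a, ha⟩ := hB.isEps.exists_rep ψ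
      have : g ∈ stabFun act fun x => Q x + B a x ^ 2 := fun v => by
        have e1 := hφ v
        rw [← hψ, ← ha, LinearMap.sub_apply, map_sub, End.one_apply] at e1
        linear_combination e1 + (Q (act g v) + B a (act g v) * B a v - B a v ^ 2) * h2
      exact (em _).imp (fun h => ⟨a, h, this⟩) fun h => ⟨a, h, this⟩
  exact cov_quot a1 a2 a3 a4 a5

theorem lg_sp (n : ℕ) : LG (G := Matrix.symplecticGroup (Fin n) F)
    ((isoAct (stdSp n F)).comp (spEquiv n F).toMonoidHom) (Pres (stdSp n F)) := by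
  refine ⟨fun g => (spEquiv n F g).2, fun f hf => ⟨(spEquiv n F).symm ((isSp_std n).isEps.toIsom f hf), ?_⟩,
    fun z hz => ?_⟩
  · simp [isoAct]; rfl
  · obtain ⟨c, hc⟩ := mem_center_sp_iff.1 hz
    refine ⟨c, ?_⟩
    change Matrix.toLin' z.1 = _
    rw [hc, map_smul, Matrix.toLin'_one]; rfl

theorem cov_psp_even [Finite F] [CharP F 2] {m : ℕ} (hm : 2 ≤ m) : Cov2 (Cfsg.PSp m F) :=
  cov_sp_even (lg_sp m) (isSp_std m) (by rw [finrank_std_sp]; omega)
    (Q := fun v => ∑ i, v (.inl i) * v (.inr i)) ⟨fun x y => by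
      simp only [stdSp_apply', ← Finset.sum_add_distrib, CharTwo.sub_eq_add, Pi.add_apply]
      exact Finset.sum_congr rfl fun i _ => by ring, fun c x => by
      simp only [Finset.mul_sum, Pi.smul_apply, smul_eq_mul]
      exact Finset.sum_congr rfl fun i _ => by ring⟩

end Cfsg.Agent.H5
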