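import Cfsg.Agent.H5.CovD
import Cfsg.Agent.H5.OreA

/-! Coverings of `Sp_6(3^a)` by two classes of subgroups. -/

set_option autoImplicit false

namespace Cfsg.Agent.H5

open Subgroup Module Polynomial H1

variable {F : Type*} [Field F] {V : Type*} [AddCommGroup V] [Module F V]
  [FiniteDimensional F V] {G : Type*} [Group G] {B : Bil F V}

theorem natDegree_dvd_finrank {J : End F V} {m : F[X]} (hm : m.Monic) (hm' : Irreducible m)
    (h : aeval J m = 0) : m.natDegree ∣ finrank F V := by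
  obtain ⟨s, hs⟩ := H4.exists_hasType J
  rw [hs.finrank_eq]
  refine Multiset.dvd_sum fun x hx => ?_
  obtain ⟨y, hy, rfl⟩ := Multiset.mem_map.1 hx
  have h2 := (dvd_pow_self _ (hs.good y hy).2.2.ne').trans ((hs.aeval_eq_zero_iff m).1 h y hy)
  rw [eq_of_monic_of_associated (hs.good y hy).1 hm ((hs.good y hy).2.1.associated_of_dvd hm' h2)]
  exact dvd_mul_left _ _

theorem finrank_ker_mul (f g : End F V) : finrank F (LinearMap.ker (f * g)) =
    finrank F ↥(LinearMap.ker f ⊓ LinearMap.range g) + finrank F (LinearMap.ker g) := by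
  have := LinearMap.finrank_range_add_finrank_ker (g.domRestrict (LinearMap.ker (f * g)))
  rw [LinearMap.range_domRestrict, LinearMap.ker_domRestrict, End.mul_eq_comp, LinearMap.ker_comp,
    Submodule.map_comap_eq, (Submodule.comapSubtypeEquivOfLe (by
      rw [← LinearMap.ker_comp]; exact LinearMap.ker_le_ker_comp g f)).finrank_eq, inf_comm] at this
  rw [End.mul_eq_comp, LinearMap.ker_comp, ← this]

omit [FiniteDimensional F V] in
theorem IsSp.self_adj (hB : IsSp B) (h2 : (2 : F) ≠ 0) {A : End F V} (hA : ∀ u v, B (A u) v = B u (A v))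
    (v : V) : B (A v) v = 0 := mul_left_cancel₀ h2 (by linear_combination hA v v + hB.skew (A v) v)

theorem IsSp.even_ker (hB : IsSp B) (h2 : (2 : F) ≠ 0) {A : End F V} (hA : ∀ u v, B (A u) v = B u (A v)) :
    Even (finrank F (LinearMap.ker A)) := by
  have h1 := even_rank_of_alt (B := B ∘ₗ A) (hB.self_adj h2 hA)
  rw [show LinearMap.ker (B ∘ₗ A) = LinearMap.ker A from Submodule.ext fun x =>
    ⟨fun h => hB.nondeg _ fun v => LinearMap.congr_fun h v, fun h => by
      rw [LinearMap.mem_ker, LinearMap.comp_apply, LinearMap.mem_ker.1 h, map_zero]⟩] at h1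
  exact ((Nat.even_sub (Submodule.finrank_le _)).1 h1).1 hB.even_finrank

theorem perp_ker_eq {ε : F} (hB : IsEps B ε) {A A' : End F V} (hA : ∀ u v, B (A u) v = B u (A' v)) :
    perp B (LinearMap.ker A) = LinearMap.range A' := by
  rw [← hB.perp_perp (LinearMap.range A')]
  congr 1
  ext x
  exact ⟨by rintro h _ ⟨v, rfl⟩; rw [← hA, LinearMap.mem_ker.1 h, map_zero, LinearMap.zero_apply],
    fun h => hB.nondeg _ fun v => (hA x v).trans (h _ ⟨v, rfl⟩)⟩

theorem jacobson {A : Type*} [Ring A] (h3 : (3 : A) = 0) {D c c' c'' : A} (e1 : D * c = c * D + c')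
    (e2 : D * c' = c' * D + c'') (e3 : c' * c = c * c') : (D + c) ^ 3 = D ^ 3 + c ^ 3 + c'' := by
  linear_combination (norm := noncomm_ring) D * e1 + 2 • (e1 * D) + e2 + e1 * c + 2 • (c * e1) + e3 +
    h3 * (c * D * D + c' * D + c * c * D + c * c')

/-- There is an invariant non-degenerate plane. -/
def InvPlane (B : Bil F V) (g : End F V) : Prop :=
  ∃ W : Submodule F V, (Disjoint W (perp B W) ∧ finrank F W = 2) ∧ ∀ w ∈ W, g w ∈ W

theorem IsSp.invPlane (hB : IsSp B) {g : End F V} {x y : V} (h : B x y ≠ 0) {a b c d : F}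
    (hx : g x = a • x + b • y) (hy : g y = c • x + d • y) : InvPlane B g := by
  have h' : B y x ≠ 0 := by rwa [hB.skew, neg_ne_zero]
  have m : ∀ {a b : F}, a • x + b • y ∈ (F ∙ x) ⊔ F ∙ y := Submodule.add_mem_sup
    (Submodule.smul_mem _ _ (Submodule.mem_span_singleton_self _))
    (Submodule.smul_mem _ _ (Submodule.mem_span_singleton_self _))
  refine ⟨(F ∙ x) ⊔ F ∙ y, ⟨Submodule.disjoint_def.2 fun w h1 h2 => ?_,
    finrank_sup_two (fun e => h (by simp [e])) fun e => ?_⟩, fun w hw => ?_⟩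
  · obtain ⟨_, ha, _, hb, rfl⟩ := Submodule.mem_sup.1 h1
    obtain ⟨r, rfl⟩ := Submodule.mem_span_singleton.1 ha
    obtain ⟨s, rfl⟩ := Submodule.mem_span_singleton.1 hb
    simp [perp_sup, mem_perp_span, hB.alt, h, h'] at h2
    simp [h2]
  · obtain ⟨r, rfl⟩ := Submodule.mem_span_singleton.1 e
    simp [hB.alt] at h
  · obtain ⟨_, ha, _, hb, rfl⟩ := Submodule.mem_sup.1 hw
    obtain ⟨r, rfl⟩ := Submodule.mem_span_singleton.1 ha
    obtain ⟨s, rfl⟩ := Submodule.mem_span_singleton.1 hb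
    rw [map_add, map_smul, map_smul, hx, hy]
    exact add_mem (Submodule.smul_mem _ _ m) (Submodule.smul_mem _ _ m)

theorem exists_basis_six (hd : finrank F V = 6) (b : Fin 6 → V)
    (h : ∀ c : Fin 6 → F, (∀ j, B (∑ i, c i • b i) (b j) = 0) → ∀ i, c i = 0) :
    ∃ e : Basis (Fin 6) F V, ∀ i, e i = b i :=
  ⟨basisOfLinearIndependentOfCardEqFinrank (Fintype.linearIndependent_iff.2 fun c hc =>
    h c fun j => by rw [hc]; simp) (by simp [hd]), fun i => by simp⟩

/-- Self-adjoint roots of an Artin-Schreier cubic. -/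
def ASRoot (B : Bil F V) (t : F) (J : End F V) : Prop :=
  (∀ u v, B (J u) v = B u (J v)) ∧ J ^ 3 - J = t • 1

theorem ASRoot.exists_basis (hB : IsSp B) (h2 : (2 : F) ≠ 0) (hd : finrank F V = 6) {t : F}
    (ht : ∀ x : F, x ^ 3 - x ≠ t) {J : End F V} (hJ : ASRoot B t J) : ∃ b : Basis (Fin 6) F V,
      (∀ i j, B (b i) (b j) = !![0, 0, 0, 0, 0, -1; 0, 0, 0, 0, -1, 0; 0, 0, 0, -1, 0, -1;
        0, 0, 1, 0, 0, 0; 0, 1, 0, 0, 0, 0; 1, 0, 1, 0, 0, 0] i j) ∧
      ∀ i, J (b i) = ![b 1, b 2, b 1 + t • b 0, b 4, b 5, b 4 + t • b 3] i := by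
  obtain ⟨m1, m2, m3⟩ := irr_cubic ht
  have : Nontrivial V := nontrivial_of_finrank_pos (R := F) (by omega)
  obtain ⟨e, he⟩ := exists_ne (0 : V)
  have j3 : ∀ v, J (J (J v)) = J v + t • v := fun v => by
    have := LinearMap.congr_fun hJ.2 v
    simp only [pow_three, LinearMap.sub_apply, End.mul_apply, LinearMap.smul_apply, End.one_apply] at this
    rw [← this]; abel
  have li : LinearIndependent F ![e, J e, J (J e)] := Fintype.linearIndependent_iff.2 fun c hc => by
    have h0 : (C (c 2) * X ^ 2 + C (c 1) * X + C (c 0) : F[X]) = 0 := by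
      by_contra h0
      obtain ⟨a, b, hab⟩ := (m2.coprime_iff_not_dvd).2 fun h =>
        absurd ((natDegree_le_of_dvd h h0).trans natDegree_quadratic_le) (by omega)
      have := LinearMap.congr_fun (congrArg (aeval J) hab) e
      rw [map_add, map_mul, map_mul, aeval_cubic.2 hJ.2, mul_zero, zero_add, End.mul_apply, map_one,
        show aeval J (C (c 2) * X ^ 2 + C (c 1) * X + C (c 0)) e = 0 by
          rw [← hc]; simp [Fin.sum_univ_three, sq]; abel, map_zero] at this
      exact he this.symm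
    intro i
    have := congrArg (coeff · i) h0
    fin_cases i <;> simpa [coeff_X] using this
  obtain ⟨f, hf⟩ := hB.isEps.exists_pairing li ![0, 0, 1]
  have f0 : B f e = 0 := hf 0
  have f1 : B f (J e) = 0 := hf 1
  have f2 : B f (J (J e)) = 1 := hf 2
  have s1 : ∀ v, B v (J v) = 0 := fun v => (hJ.1 v v).symm.trans (hB.self_adj h2 hJ.1 v)
  have s2 : ∀ v, B v (J (J v)) = 0 := fun v => (hJ.1 v _).symm.trans (hB.alt _)
  have gr : ∀ i j, B (![e, J e, J (J e), f, J f, J (J f)] i) (![e, J e, J (J e), f, J f, J (J f)] j) =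
      !![0, 0, 0, 0, 0, -1; 0, 0, 0, 0, -1, 0; 0, 0, 0, -1, 0, -1;
        0, 0, 1, 0, 0, 0; 0, 1, 0, 0, 0, 0; 1, 0, 1, 0, 0, 0] i j := fun i j => by
    have g0 : B e f = 0 := by rw [hB.skew, f0, neg_zero]
    have g1 : B e (J f) = 0 := by rw [hB.skew, hJ.1, f1, neg_zero]
    have g2 : B e (J (J f)) = -1 := by rw [hB.skew, hJ.1, hJ.1, f2]
    fin_cases i <;> fin_cases j <;> simp [hJ.1, j3, hB.alt, s1, s2, f0, f1, f2, g0, g1, g2]
  obtain ⟨b, hb⟩ := exists_basis_six (B := B) hd ![e, J e, J (J e), f, J f, J (J f)] fun c hc => by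
    simp only [map_sum, map_smul, LinearMap.sum_apply, LinearMap.smul_apply, gr] at hc
    have h0 := hc 0
    have h1 := hc 1
    have h2 := hc 2
    have h3 := hc 3
    have h4 := hc 4
    have h5 := hc 5
    simp [Fin.sum_univ_six] at h0 h1 h2 h3 h4 h5
    intro i
    fin_cases i <;> simp_all
  exact ⟨b, fun i j => by rw [hb, hb, gr], fun i => by fin_cases i <;> simp [hb, j3]⟩

theorem ASRoot.exists_isom (hB : IsSp B) (h2 : (2 : F) ≠ 0) (hd : finrank F V = 6) {t : F}
    (ht : ∀ x : F, x ^ 3 - x ≠ t) {J J' : End F V} (hJ : ASRoot B t J) (hJ' : ASRoot B t J') :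
    ∃ y, Pres B y ∧ y * J = J' * y := by
  obtain ⟨b, b1, b2⟩ := hJ.exists_basis hB h2 hd ht
  obtain ⟨c, c1, c2⟩ := hJ'.exists_basis hB h2 hd ht
  refine ⟨b.constr F c, fun u v => ?_, b.ext fun i => ?_⟩
  · have : B.compl₁₂ (b.constr F c) (b.constr F c) = B := LinearMap.ext_basis b b fun i j => by
      simp only [LinearMap.compl₁₂_apply, Basis.constr_basis, b1, c1]
    exact LinearMap.congr_fun₂ this u v
  · rw [End.mul_apply, End.mul_apply, Basis.constr_basis, b2, c2]
    fin_cases i <;> simp [-Basis.constr_apply_fintype]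

theorem asRoot_of_frame [Finite F] [CharP F 3] (hB : IsSp B) (hd : finrank F V = 6) (t : F)
    {g g' : End F V} (hg : Pres B g) (i1 : g * g' = 1) (i2 : g' * g = 1) {α : F}
    (hα : g ^ 3 + g' ^ 3 = α • 1) {v w : V} (h0 : B v w ≠ 0) (v1 : B v (g v) = 0)
    (v2 : B v (g (g v)) = 0) (w1 : B w (g w) = 0) (w2 : B w (g (g w)) = 0) (x1 : B v (g w) = 0)
    (x2 : B v (g (g w)) = 0) (y1 : B w (g v) = 0) (y2 : B w (g (g v)) = 0) {a b c d : F}
    (hv : g (g (g v)) = a • v + b • w) (hw : g (g (g w)) = c • v + d • w) :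
    ∃ J, ASRoot B t J ∧ ∃ c : F, g * J = (J + c • 1) * g := by
  have : Fact (Nat.Prime 3) := ⟨Nat.prime_three⟩
  have : Nontrivial V := nontrivial_of_finrank_pos (R := F) (by omega)
  have := charP_of_injective_algebraMap (algebraMap F (End F V)).injective 3
  have h3 : (3 : F) = 0 := CharP.cast_eq_zero F 3
  have h3' : (3 : End F V) = 0 := CharP.cast_eq_zero _ 3
  have h3'' : (1 : End F V) + 1 + 1 = 0 := by rw [← h3']; norm_num
  have sk : ∀ {x y}, B x y = 0 → B y x = 0 := hB.isEps.refl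
  have gr : ∀ i j, B (![v, w, g v, g w, g (g v), g (g w)] i) (![v, w, g v, g w, g (g v), g (g w)] j) =
      B v w * !![0, 1, 0, 0, 0, 0; -1, 0, 0, 0, 0, 0; 0, 0, 0, 1, 0, 0;
        0, 0, -1, 0, 0, 0; 0, 0, 0, 0, 0, 1; 0, 0, 0, 0, -1, 0] i j := fun i j => by
    fin_cases i <;> fin_cases j <;> simp [show ∀ x y, B (g x) (g y) = B x y from hg, hB.alt, v1, v2, w1,
      w2, x1, x2, y1, y2, sk v1, sk v2, sk w1, sk w2, sk x1, sk x2, sk y1, sk y2, hB.skew v w]
  obtain ⟨e, he⟩ := exists_basis_six (B := B) hd ![v, w, g v, g w, g (g v), g (g w)] fun c hc => by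
    simp only [map_sum, map_smul, LinearMap.sum_apply, LinearMap.smul_apply, gr] at hc
    have h0 := hc 0
    have h1 := hc 1
    have h2 := hc 2
    have h3 := hc 3
    have h4 := hc 4
    have h5 := hc 5
    simp [Fin.sum_univ_six, h0] at h0 h1 h2 h3 h4 h5
    intro i
    fin_cases i <;> simp_all
  let D : End F V := e.constr F fun i => (![0, 0, 1, 1, -1, -1] i : F) • e i
  have D0 : ∀ i, D (e i) = (![0, 0, 1, 1, -1, -1] i : F) • e i := fun i => e.constr_basis F _ i
  have D1 : ∀ x y, B (D x) y = B x (D y) := fun x y =>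
    LinearMap.congr_fun₂ (LinearMap.ext_basis (B := B.compl₁₂ D .id) (B' := B.compl₁₂ .id D) e e fun i j => by
      simp only [LinearMap.compl₁₂_apply, D0, map_smul, LinearMap.smul_apply, LinearMap.id_apply]
      rw [he, he, gr]
      fin_cases i <;> fin_cases j <;> simp) x y
  have D2 : D ^ 3 = D := e.ext fun i => by
    simp only [pow_three, End.mul_apply, D0, map_smul, smul_smul]
    fin_cases i <;> simp
  have D3 : D * g = g * D + g := e.ext fun i => by
    have d0 := D0 0
    have d1 := D0 1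
    have d2 := D0 2
    have d3 := D0 3
    have d4 := D0 4
    have d5 := D0 5
    simp [he] at d0 d1 d2 d3 d4 d5
    rw [he]
    have t3 : ∀ x : V, -x = x + x := fun x => by linear_combination (norm := module) -h3 • x
    fin_cases i <;> simp [d0, d1, d2, d3, d4, d5, hv, hw, ← t3]
  have D4 : D * g' = g' * D - g' := by
    linear_combination (norm := noncomm_ring) -(g' * D3 * g') - i2 * D * g' + g' * D * i1 - g' * i1
  have ad : ∀ x y, B (g x) y = B x (g' y) := fun x y => by
    rw [← hg x, ← End.mul_apply g g', i1, End.one_apply]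
  have ad' : ∀ x y, B (g' x) y = B x (g y) := fun x y => by
    rw [← hg _ y, ← End.mul_apply g g', i1, End.one_apply]
  have c0 : Commute g g' := i1.trans i2.symm
  obtain ⟨x, x', κ, γ, k1, k2, k3, k4, k5, k6, k7, k8⟩ : ∃ (x x' : End F V) (κ γ : F), κ * κ = 1 ∧ γ ≠ 0 ∧
      D * x = x * D + κ • x ∧ D * x' = x' * D - κ • x' ∧ x ^ 3 + x' ^ 3 = γ • 1 ∧ Commute x x' ∧
      Commute g (x + x') ∧ ∀ u v, B ((x + x') u) v = B u ((x + x') v) := by
    by_cases a0 : α = 0
    · refine ⟨g * g, g' * g', -1, 1, by simp, one_ne_zero, ?_, ?_, ?_, (c0.mul_right c0).mul_left (c0.mul_right c0),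
        ((Commute.refl g).mul_right (Commute.refl g)).add_right (c0.mul_right c0), fun u v => by simp [ad, ad', add_comm]⟩
      · rw [neg_smul, one_smul]
        linear_combination (norm := noncomm_ring) D3 * g + g * D3 + h3' * (g * g)
      · rw [neg_smul, one_smul]
        linear_combination (norm := noncomm_ring) D4 * g' + g' * D4 - h3' * (g' * g')
      · have e1 : g ^ 3 * g' ^ 3 = 1 := by rw [← c0.mul_pow, i1, one_pow]
        have e2 : g' ^ 3 * g ^ 3 = 1 := by rw [← c0.symm.mul_pow, i2, one_pow]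
        rw [a0, zero_smul] at hα
        rw [(Commute.refl g).mul_pow, (Commute.refl g').mul_pow, one_smul]
        generalize g ^ 3 = h at *
        generalize g' ^ 3 = h' at *
        linear_combination (norm := noncomm_ring) hα * (h + h') - e1 - e2 - h3''
    · exact ⟨g, g', 1, α, by simp, a0, by simpa, by simpa, hα, c0, (Commute.refl g).add_right c0,
        fun u v => by simp [ad, ad', add_comm]⟩
  obtain ⟨β, hβ⟩ := surjective_frobenius F 3 (t / γ)
  rw [frobenius_def] at hβ
  refine ⟨D + β • (x + x'), ⟨fun u v => by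
    simp only [LinearMap.add_apply D, map_add, LinearMap.add_apply (B _), LinearMap.smul_apply, map_smul, D1,
      k8], ?_⟩, -1, ?_⟩
  · rw [jacobson h3' (c' := (β * κ) • (x - x')) (c'' := β • (x + x')), D2, _root_.smul_pow,
      add_pow_char_of_commute _ k6, k5, smul_smul, hβ, div_mul_cancel₀ _ k2]
    · abel
    · simp only [mul_smul_comm, smul_mul_assoc, mul_add, add_mul, k3, k4]; module
    · simp only [mul_smul_comm, smul_mul_assoc, mul_sub, sub_mul, k3, k4]
      match_scalars <;> grind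
    · simp only [mul_smul_comm, smul_mul_assoc, mul_sub, sub_mul, mul_add, add_mul, k6.eq]; module
  · simp only [mul_add g D, add_mul, mul_smul_comm, smul_mul_assoc, k7.eq, D3]; module

end Cfsg.Agent.H5
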