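import Cfsg.Agent.H5.CovE
import Cfsg.Agent.H4.Cyc2

/-! Coverings of `Sp_6(3^a)`: the case analysis. -/

set_option autoImplicit false

namespace Cfsg.Agent.H5

open Subgroup Module Polynomial H1

variable {F : Type*} [Field F] {V : Type*} [AddCommGroup V] [Module F V]
  [FiniteDimensional F V] {G : Type*} [Group G] {B : Bil F V}

theorem sp6_nil [Finite F] [CharP F 3] (hB : IsSp B) (hd : finrank F V = 6) (t : F)
    {g g' : End F V} (hg : Pres B g) (i1 : g * g' = 1) (i2 : g' * g = 1) {a : F} {k : ℕ}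
    (hn : (g + g' - a • 1) ^ k = 0) (hP : ¬ InvPlane B g) :
    ∃ J, ASRoot B t J ∧ ∃ c : F, g * J = (J + c • 1) * g := by
  have : Fact (Nat.Prime 3) := ⟨Nat.prime_three⟩
  have : Nontrivial V := nontrivial_of_finrank_pos (R := F) (by omega)
  have := charP_of_injective_algebraMap (algebraMap F (End F V)).injective 3
  have h3 : (3 : F) = 0 := CharP.cast_eq_zero F 3
  have h2 : (2 : F) ≠ 0 := fun h => one_ne_zero (α := F) (by linear_combination h3 - h)
  have j1 : ∀ x, g (g' x) = x := LinearMap.congr_fun i1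
  have j2 : ∀ x, g' (g x) = x := LinearMap.congr_fun i2
  have ad : ∀ x y, B (g x) y = B x (g' y) := fun x y => by rw [← hg x, j1]
  have ad' : ∀ x y, B (g' x) y = B x (g y) := fun x y => by rw [← hg _ y, j1]
  have c0 : Commute g g' := i1.trans i2.symm
  obtain ⟨n, n0⟩ : ∃ n, n = g + g' - a • 1 := ⟨_, rfl⟩
  rw [← n0] at hn
  have n1 : ∀ x, n x = g x + g' x - a • x := fun x => by rw [n0]; rfl
  have n2 : ∀ x y, B (n x) y = B x (n y) := fun x y => by simp [n1, ad, ad']; ring
  have gn : ∀ x, g (n x) = n (g x) := fun x => by simp [n1, j1, j2]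
  have gn' : ∀ x, g' (n x) = n (g' x) := fun x => by simp [n1, j1, j2]
  have ev : ∀ j, Even (finrank F (LinearMap.ker (n ^ j))) := fun j => hB.even_ker h2 (pow_adj n2 j)
  have st : ∀ j, n ^ j ≠ 0 → finrank F (LinearMap.ker (n ^ j)) < finrank F (LinearMap.ker (n ^ (j + 1))) :=
    fun j hj => Submodule.finrank_lt_finrank_of_lt (lt_of_le_of_ne (n.iterateKer.monotone j.le_succ) fun e => hj <| by
      have := End.ker_pow_constant e k
      rw [pow_add, hn, mul_zero, LinearMap.ker_zero] at this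
      exact LinearMap.ker_eq_top.1 this)
  have n3 : n ^ 3 = 0 := by
    by_contra h
    have a0 := st 0 (by simp)
    have a1 := st 1 fun e => h (by rw [pow_succ' n 2, ← pow_one n, e]; simp)
    have a2 := st 2 fun e => h (by rw [pow_succ' n 2, e, mul_zero])
    have a3 := st 3 h
    have := Submodule.finrank_le (LinearMap.ker (n ^ (3 + 1)))
    have e1 := ev 1
    have e2 := ev 2
    have e3 := ev 3
    simp only [zero_add, Nat.reduceAdd, Nat.even_iff] at *
    omega
  have n3' : ∀ x, n (n (n x)) = 0 := fun x => by simpa [pow_three] using LinearMap.congr_fun n3 x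
  have hα : g ^ 3 + g' ^ 3 = a ^ 3 • 1 := by
    rw [n0, sub_pow_char_of_commute _ ((Commute.one_right _).smul_right a), add_pow_char_of_commute _ c0,
      _root_.smul_pow, one_pow] at n3
    exact sub_eq_zero.1 n3
  have hα' : ∀ x, g (g (g x)) + g' (g' (g' x)) = a ^ 3 • x := fun x => by
    simpa [pow_three] using LinearMap.congr_fun hα x
  have sk : ∀ x y, B x (g' y) = -B y (g x) := fun x y => by rw [← ad, hB.skew]
  by_cases hT : ∃ v, B v (g (n (n v))) ≠ 0
  · obtain ⟨v, hv⟩ := hT
    have sy : ∀ x y, B (n x) (g y) = B x (g (n y)) := fun x y => by rw [n2, gn]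
    obtain ⟨r, hr⟩ := exists_mul_eq_one_of_ne hv
    obtain ⟨u, u0, u1, u2⟩ : ∃ u, B u (g u) = 0 ∧ B u (g (n u)) = 0 ∧ B u (g (n (n u))) ≠ 0 := by
      refine ⟨v + (B v (g (n v)) * r) • n v + (B v (g v) * r) • n (n v), ?_, ?_, ?_⟩
      · simp [sy, n3']; grind
      · simp [sy, n3']; grind
      · simpa [sy, n3'] using hv
    have b2 : B u (g (g u)) = 0 := by simpa [n1, j1, hB.alt, u0] using u1
    have b3 : B u (g (g (g u))) ≠ 0 := by simpa [n1, j1, j2, hB.alt, u0, b2, sk] using u2
    have b4 : B u (g (g (g (g u)))) = 0 := by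
      have := congrArg (B u) (hα' (g u))
      simpa [j2, u0, ← ad, hB.isEps.refl b2] using this
    have b5 : B u (g (g (g (g (g u))))) = 0 := by
      have := congrArg (B u) (hα' (g (g u)))
      simpa [j2, b2, ← ad, hB.isEps.refl u0] using this
    exact asRoot_of_frame hB hd t hg i1 i2 hα (v := u) (w := g (g (g u))) b3 u0 b2
      (by rw [hg, hg, hg, u0]) (by rw [hg, hg, hg, b2]) b4 b5 (by rw [hg, hB.isEps.refl b2])
      (by rw [hg, hg, hB.isEps.refl u0]) (a := 0) (b := 1) (c := -1) (d := a ^ 3) (by simp)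
      (by have := hα' (g (g (g u))); simp only [j2] at this; rw [← this]; module)
  push Not at hT
  have pol : ∀ {A : End F V} {W : Submodule F V}, (∀ x y, B (A x) y = B x (A y)) → (∀ x, g (A x) = A (g x)) →
      (∀ v ∈ W, B v (g (A v)) = 0) → ∀ x ∈ W, ∀ y ∈ W, B (g (A x) - g' (A x)) y = 0 :=
    fun {A W} hA hc h x hx y hy => by
      have := h _ (add_mem hx hy)
      simp only [map_add, LinearMap.add_apply, h x hx, h y hy] at this
      rw [map_sub, LinearMap.sub_apply, ad', hA, ← hc, hB.skew y]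
      linear_combination -this
  have T2 : ∀ x, g (n (n x)) = g' (n (n x)) := fun x => sub_eq_zero.1 (hB.nondeg _ fun y =>
    pol (A := n * n) (W := ⊤) (fun x y => by simp [n2]) (fun x => by simp [gn]) (fun v _ => hT v)
      x trivial y trivial)
  have T1 : ∀ x ∈ LinearMap.ker n, g x - g' x ∈ LinearMap.range n := fun x hx => by
    rw [← perp_ker_eq hB.isEps n2]
    refine pol (A := 1) (by simp) (by simp) (fun v hv => by_contra fun h => hP ?_) x hx
    refine hB.invPlane h (a := 0) (b := 1) (c := -1) (d := a) (by simp) ?_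
    have := congrArg g ((n1 v).symm.trans hv)
    simp only [map_add, map_sub, map_smul, j1, map_zero, End.one_apply] at this ⊢
    linear_combination (norm := module) this
  have TT : ∀ x, n x = 0 → g (g x - g' x) - g' (g x - g' x) = (a ^ 2 - 4) • x := fun x hx => by
    have e1 := congrArg g ((n1 x).symm.trans hx)
    have e2 := congrArg g' ((n1 x).symm.trans hx)
    have e3 := (n1 x).symm.trans hx
    simp only [map_add, map_sub, map_smul, j1, j2, map_zero] at e1 e2 ⊢
    linear_combination (norm := module) e1 + e2 + a • e3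
  have rk := LinearMap.finrank_range_add_finrank_ker n
  have e1 := ev 1
  rw [pow_one] at e1
  by_cases ha : a ^ 2 - 4 = 0
  swap
  · exfalso
    have z : LinearMap.range n ≤ LinearMap.ker n := by
      rintro _ ⟨x, rfl⟩
      have := TT _ (n3' x)
      rw [T2, sub_self, map_zero, map_zero, sub_self, eq_comm, smul_eq_zero, or_iff_right ha] at this
      exact this
    have z' : LinearMap.ker n ≤ LinearMap.range n := fun x hx => by
      obtain ⟨y, hy⟩ := T1 x hx
      rw [← Submodule.smul_mem_iff _ ha, ← TT x hx, ← hy, gn, gn', ← map_sub]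
      exact ⟨_, rfl⟩
    rw [le_antisymm z z'] at rk
    rw [Nat.even_iff] at e1
    omega
  obtain ⟨N, N0⟩ : ∃ N : End F V, N = g + a • 1 := ⟨_, rfl⟩
  have N1 : ∀ x, N x = g x + a • x := fun x => by rw [N0]; rfl
  have a1 : a * a = 1 := by linear_combination ha + h3
  have N2 : ∀ x, N (N x) = n (g x) := fun x => by
    simp only [N1, n1, map_add, map_smul, j2]
    linear_combination (norm := module) (a * h3) • g x + a1 • x
  have gN : ∀ x, g (N x) = N (g x) := fun x => by simp [N1]
  have N3 : ∀ x ∈ LinearMap.ker n, N x ∈ LinearMap.range n := fun x hx => by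
    obtain ⟨y, hy⟩ := T1 x hx
    have e3 := (n1 x).symm.trans hx
    refine ⟨-y, ?_⟩
    rw [map_neg, hy, N1]
    linear_combination (norm := module) e3 - h3 • g x
  have N4 : LinearMap.ker N ≤ LinearMap.range N := by
    rw [← perp_ker_eq hB.isEps (A := g' + a • 1) fun u v => by simp [N1, ad']]
    intro x hx y hy
    by_contra h
    have e1 : N x = 0 := hx
    have e2 : g' y + a • y = 0 := hy
    have e3 := congrArg g e2
    rw [map_add, map_smul, j1, map_zero] at e3
    rw [N1] at e1
    exact hP (hB.invPlane h (a := -a) (b := 0) (c := 0) (d := -a)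
      (by linear_combination (norm := module) e1) (by linear_combination (norm := module) a • e3 - a1 • g y))
  have N5 : LinearMap.ker N ≤ LinearMap.range n := fun x hx => by
    obtain ⟨y, rfl⟩ := N4 hx
    refine N3 y ?_
    rw [LinearMap.mem_ker, ← j2 (n y), gn, ← N2, LinearMap.mem_ker.1 hx, map_zero]
  have d1 : finrank F (LinearMap.ker n) = 2 * finrank F (LinearMap.ker N) := by
    have := finrank_ker_mul N N
    rw [inf_eq_left.2 N4, show N * N = g * n from LinearMap.ext fun x => (N2 x).trans (gn x).symm,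
      End.mul_eq_comp, LinearMap.ker_comp_of_ker_eq_bot _
        (LinearMap.ker_eq_bot.2 (hB.isEps.injective_of_pres hg))] at this
    omega
  have d2 := Submodule.finrank_mono N5
  have d3 : finrank F (LinearMap.range (n * n)) ≤ finrank F (LinearMap.ker N) :=
    Submodule.finrank_mono (by
      rintro _ ⟨x, rfl⟩
      have e3 := (n1 _).symm.trans (n3' x)
      rw [← T2] at e3
      rw [LinearMap.mem_ker, End.mul_apply, N1]
      linear_combination (norm := module) h3 • g (n (n x)) - e3)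
  have d4 := finrank_ker_mul n n
  have d5 := Submodule.finrank_mono (inf_le_left : LinearMap.ker n ⊓ LinearMap.range n ≤ _)
  have d6 := LinearMap.finrank_range_add_finrank_ker (n * n)
  have d7 : LinearMap.ker N = LinearMap.range n := Submodule.eq_of_le_of_finrank_eq N5 (by omega)
  have g1 : ∀ x, g (n x) = -a • n x := fun x => by
    have : N (n x) = 0 := (d7.ge ⟨x, rfl⟩ :)
    rw [N1] at this
    linear_combination (norm := module) this
  have g3 : ∀ x, g (g (g x)) = -a • x := fun x => by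
    have := g1 (g x)
    simp only [n1, map_add, map_sub, map_smul, j1, j2] at this
    linear_combination (norm := module) this - h3 • g x + (a1 + h3) • g x
  obtain ⟨v, w, hvw⟩ : ∃ v w, B v (n w) ≠ 0 := by
    by_contra h
    push Not at h
    have : LinearMap.range n = ⊥ := eq_bot_iff.2 (by rintro _ ⟨x, rfl⟩; exact hB.isEps.nondeg' _ fun u => h u x)
    rw [this, finrank_bot] at d2 rk
    omega
  have g2 : ∀ x, g' x = -a • g (g x) := fun x => by
    have := congrArg g' (g3 x)
    rw [j2, map_smul] at this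
    linear_combination (norm := module) a • this - a1 • g' x
  have q1 : ∀ x y, B x (g y) = a * B y (g (g x)) := fun x y => by rw [← ad', hB.skew, g2]; simp
  have q2 : ∀ x y, B x (g (g y)) = a * B y (g x) := fun x y => by rw [q1 y x]; grind
  have hg' : ∀ x y, B (g x) (g y) = B x y := hg
  have fix : ∀ v w, B v (n w) ≠ 0 → ∃ c : F, B (v + c • N w) (g (v + c • N w)) = 0 := fun v w h => by
    obtain ⟨r, hr⟩ := exists_mul_eq_one_of_ne h
    refine ⟨-a * B v (g v) * r, ?_⟩
    simp [n1, g2] at hr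
    simp [N1, hg', hB.skew v w, q1 w v, q2 w w]
    grind
  obtain ⟨c, v1⟩ := fix v w hvw
  replace hvw : B (v + c • N w) (n w) ≠ 0 := by
    rwa [map_add, map_smul, LinearMap.add_apply, LinearMap.smul_apply, ← n2 (N w), N1, map_add, ← gn, g1,
      map_smul, neg_smul, neg_add_cancel, map_zero, LinearMap.zero_apply, smul_zero, add_zero]
  generalize v + c • N w = v at v1 hvw
  have v2 : B v (g (g v)) = 0 := by rw [q2, v1, mul_zero]
  obtain ⟨w, w0, w1, w2⟩ : ∃ w, B v w ≠ 0 ∧ B v (g w) = 0 ∧ B v (g (g w)) = 0 := by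
    obtain ⟨r, hr⟩ := exists_mul_eq_one_of_ne hvw
    simp [n1, g2] at hr
    refine ⟨(B v w ^ 2 + a * B v (g w) * B v (g (g w))) • w + (a * B v w * B v (g (g w)) - a * B v (g w) ^ 2) • g w +
      (a * B v w * B v (g w) + B v (g (g w)) ^ 2) • g (g w), fun h => ?_, ?_, ?_⟩
    · simp at h; grind
    · simp [g3]; grind
    · simp [g3]; grind
  obtain ⟨c, x1⟩ := fix w v (by rw [← n2, hB.skew]; simp [n1, g2, w1, w2, w0]; grind)
  have y1 : B v (g (w + c • N v)) = 0 := by simp [N1, v1, v2, w1]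
  have y2 : B v (g (g (w + c • N v))) = 0 := by simp [N1, v2, w2, g3, hB.alt]
  exact asRoot_of_frame hB hd t hg i1 i2 hα (v := v) (w := w + c • N v) (by simpa [N1, v1, hB.alt] using w0)
    v1 v2 x1 (by rw [q2, x1, mul_zero]) y1 y2 (by rw [q1, y2, mul_zero]) (by rw [q2, y1, mul_zero])
    (a := -a) (b := 0) (c := 0) (d := -a) (by simp [g3]) (by rw [g3]; simp)

theorem nul_pow_ne_zero {s : End F V} {f : F[X]} (f1 : f.Monic) (f2 : Irreducible f) (f3 : f ∣ s.charpoly)
    {k : ℕ} (hk : 0 < k) : H4.nul s (f ^ k) ≠ 0 := by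
  classical
  obtain ⟨T, hT⟩ := H4.exists_hasType s
  rw [hT.charpoly_eq] at f3
  obtain ⟨_, h1, h2⟩ := f2.prime.exists_mem_multiset_dvd f3
  obtain ⟨y, hy, rfl⟩ := Multiset.mem_map.1 h1
  have e := eq_of_monic_of_associated f1 (hT.good y hy).1
    (f2.associated_of_dvd (hT.good y hy).2.1 (f2.prime.dvd_of_dvd_pow h2))
  rw [hT.nul_pow f1 f2]
  refine mul_ne_zero (fun h => ?_) f2.natDegree_pos.ne'
  have := Multiset.sum_eq_zero_iff.1 h _ (Multiset.mem_map_of_mem _ hy)
  rw [if_pos e.symm] at this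
  have := (hT.good y hy).2.2
  omega

theorem sp6_cases [Finite F] [CharP F 3] (hB : IsSp B) (hd : finrank F V = 6) {t : F}
    (ht : ∀ x : F, x ^ 3 - x ≠ t) {g g' : End F V} (hg : Pres B g) (i1 : g * g' = 1) (i2 : g' * g = 1) :
    InvPlane B g ∨ ∃ J, ASRoot B t J ∧ ∃ c : F, g * J = (J + c • 1) * g := by
  refine or_iff_not_imp_left.2 fun hP => ?_
  have h3 : (3 : F) = 0 := CharP.cast_eq_zero F 3
  have h2 : (2 : F) ≠ 0 := fun h => one_ne_zero (α := F) (by linear_combination h3 - h)
  have j1 : ∀ x, g (g' x) = x := LinearMap.congr_fun i1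
  have ad : ∀ x y, B (g x) y = B x (g' y) := fun x y => by rw [← hg x, j1]
  have ad' : ∀ x y, B (g' x) y = B x (g y) := fun x y => by rw [← hg _ y, j1]
  have s1 : ∀ x y, B ((g + g') x) y = B x ((g + g') y) := fun x y => by simp [ad, ad', add_comm]
  have cg : ∀ p : F[X], Commute (aeval (g + g') p) g :=
    commute_aeval_left ((Commute.refl g).add_left (i2.trans i1.symm))
  generalize hs : g + g' = s at s1 cg
  obtain ⟨f, f1, f2, f3⟩ := exists_monic_irreducible_factor s.charpoly (fun h => by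
    have := natDegree_eq_zero_of_isUnit h
    rw [LinearMap.charpoly_natDegree] at this
    omega)
  have hf : aeval s (f ^ 6) = 0 := by
    have A1 := aeval_adj s1 (f ^ 6)
    have A2 : IsCompl (LinearMap.ker (aeval s (f ^ 6))) (LinearMap.range (aeval s (f ^ 6))) := by
      have := isCompl_kerP (aeval s f) 0 hd.le
      simpa [kerP, ranP] using this
    have A3 := perp_ker_eq hB.isEps A1
    have A4 : Disjoint (LinearMap.ker (aeval s (f ^ 6))) (perp B (LinearMap.ker (aeval s (f ^ 6)))) :=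
      A3 ▸ A2.disjoint
    have A5 : ∀ w ∈ LinearMap.ker (aeval s (f ^ 6)), g w ∈ LinearMap.ker (aeval s (f ^ 6)) := fun w hw => by
      rw [LinearMap.mem_ker, ← End.mul_apply, (cg _).eq, End.mul_apply, LinearMap.mem_ker.1 hw, map_zero]
    have A6 := hB.even_ker h2 A1
    have A7 := hB.isEps.finrank_perp (LinearMap.ker (aeval s (f ^ 6)))
    have A8 : finrank F (LinearMap.ker (aeval s (f ^ 6))) ≠ 0 := nul_pow_ne_zero f1 f2 f3 (by omega)
    have A9 : finrank F (LinearMap.ker (aeval s (f ^ 6))) ≠ 2 := fun h => hP ⟨_, ⟨A4, h⟩, A5⟩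
    have A10 : finrank F (perp B (LinearMap.ker (aeval s (f ^ 6)))) ≠ 2 := fun h =>
      hP ⟨_, ⟨hB.isEps.disjoint_perp_perp A4, h⟩, hg.map_perp hB.isEps A5⟩
    rw [Nat.even_iff] at A6
    exact LinearMap.ker_eq_top.1 (Submodule.eq_top_of_finrank_eq (by omega))
  have root : ∀ {m : F[X]}, Irreducible m → m.natDegree ∣ f.natDegree → ∃ p : F[X], aeval (aeval s p) m = 0 :=
    fun {m} hm hd => exists_aeval_root hm (pow_ne_zero 6 f2.ne_zero) hf fun φ h1 h2 => by
      rwa [natDegree_eq_of_degree_eq (degree_eq_degree_of_associated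
        (h1.associated_of_dvd f2 (h1.prime.dvd_of_dvd_pow h2)))]
  obtain ⟨m1, m2, m3⟩ := irr_cubic ht
  by_cases d3 : 3 ∣ f.natDegree
  · obtain ⟨p, hp⟩ := root m2 (by rwa [m3])
    exact ⟨_, ⟨aeval_adj s1 p, aeval_cubic.1 hp⟩, 0, by simpa using (cg p).symm.eq⟩
  obtain ⟨p, hp⟩ := root f2 dvd_rfl
  have d6 := natDegree_dvd_finrank f1 f2 hp
  rw [hd] at d6
  have d1 : f.natDegree = 1 ∨ f.natDegree = 2 := by
    have := Nat.le_of_dvd (by omega) d6
    interval_cases f.natDegree <;> omega
  rcases d1 with d1 | d1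
  · rw [f1.eq_X_add_C d1, map_pow, map_add, aeval_X, aeval_C, Algebra.algebraMap_eq_smul_one, ← hs] at hf
    exact sp6_nil hB hd t hg i1 i2 (a := -f.coeff 0) (k := 6) (by simpa using hf) hP
  exfalso
  have J1 := aeval_adj s1 p
  generalize aeval s p = J at hp J1
  have J2 : ∀ v, J (J v) = -f.coeff 1 • J v - f.coeff 0 • v := fun v => by
    have := LinearMap.congr_fun hp v
    rw [f1.as_sum, d1] at this
    simp [Finset.sum_range_succ, sq] at this
    linear_combination (norm := module) this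
  have J3 : ∀ v, B v (J v) = 0 := fun v => (J1 v v).symm.trans (hB.self_adj h2 J1 v)
  have : Nontrivial V := nontrivial_of_finrank_pos (R := F) (by omega)
  obtain ⟨e, he⟩ := exists_ne (0 : V)
  have ne : ∀ {v}, v ≠ 0 → J v ∉ F ∙ v := fun {v} hv h => by
    obtain ⟨c, hc⟩ := Submodule.mem_span_singleton.1 h
    exact hv (no_eigen_of_irr f2 d1.ge hp v c hc.symm)
  have a1 := finrank_sup_two he (ne he)
  have a2 := hB.isEps.finrank_perp ((F ∙ e) ⊔ F ∙ J e)
  obtain ⟨w, hw, we⟩ := exists_not_mem_of_finrank_lt (S := (F ∙ e) ⊔ F ∙ J e)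
    (T := perp B ((F ∙ e) ⊔ F ∙ J e)) (by omega)
  simp [perp_sup, mem_perp_span] at hw
  have sk : ∀ {x y}, B x y = 0 → B y x = 0 := hB.isEps.refl
  have w3 : B (J w) e = 0 := by rw [J1, hw.2]
  have w4 : B (J w) (J e) = 0 := by simp [J1, J2, hw]
  let U := Submodule.span F {e, J e, w, J w}
  have u1 := hB.isEps.two_mul_le (W := U) (Submodule.span_le.2 (by
    simp [U, Set.insert_subset_iff, mem_perp_span, hB.alt, J3, sk (J3 _), hw, w3, w4, sk hw.1, sk hw.2,
      sk w3, sk w4]))
  have m : ∀ x ∈ ({e, J e, w, J w} : Set V), x ∈ U := fun x => (Submodule.subset_span ·)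
  have u2 : ∀ x ∈ U, J x ∈ U := fun x hx => by
    refine Submodule.span_le.2 (?_ : _ ⊆ (U.comap J : Set V)) hx
    simp only [Set.insert_subset_iff, Set.singleton_subset_iff, SetLike.mem_coe, Submodule.mem_comap, J2]
    exact ⟨m _ (by simp), sub_mem (U.smul_mem _ (m _ (by simp))) (U.smul_mem _ (m _ (by simp))),
      m _ (by simp), sub_mem (U.smul_mem _ (m _ (by simp))) (U.smul_mem _ (m _ (by simp)))⟩
  have u3 := natDegree_dvd_finrank (J := J.restrict u2) f1 f2 (LinearMap.ext fun x => Subtype.ext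
    ((H4.intertwine_aeval (f := J.restrict u2) (g := J) U.subtype (fun _ => rfl) f x).trans (by rw [hp]; rfl)))
  have u4 := Submodule.finrank_lt_finrank_of_lt (s := (F ∙ e) ⊔ F ∙ J e) (t := U) (lt_of_le_of_ne
    (by simp [m]) fun h => we (h ▸ m w (by simp)))
  rw [d1] at u3
  omega

theorem cov_sp6 [Finite F] [CharP F 3] {act : G →* End F V} (L : LG act (Pres B)) (hB : IsSp B)
    (hd : finrank F V = 6) : Cov2 (G ⧸ center G) := by
  have h3 : (3 : F) = 0 := CharP.cast_eq_zero F 3
  have h2 : (2 : F) ≠ 0 := fun h => one_ne_zero (α := F) (by linear_combination h3 - h)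
  obtain ⟨t, ht⟩ := exists_not_wp (F := F)
  obtain ⟨m1, m2, m3⟩ := irr_cubic ht
  obtain ⟨H, K, a1, a2, a3, a4, a5⟩ := cov_of (center G)
    (fun W : Submodule F V => Disjoint W (perp B W) ∧ finrank F W = 2) (ASRoot B t) (stabSub act)
    (fun J => shiftSub act J ⊤) (fun W hW => ⟨by
      obtain ⟨u, hu, u0⟩ := W.exists_mem_ne_zero_of_ne_bot (by rintro rfl; simp at hW)
      obtain ⟨y, -, hy⟩ := exists_not_mem_of_finrank_lt (S := W) (T := ⊤) (by rw [finrank_top]; omega)
      obtain ⟨f, hf⟩ := hB.exists_pair u0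
      obtain ⟨a, a1, a2⟩ : ∃ a, a ∉ W ∧ B u a ≠ 0 := by
        by_cases h1 : f ∈ W
        · by_cases h2 : B u y = 0
          · exact ⟨f + y, fun h => hy ((add_mem_cancel_left h1).1 h), by simp [h2, hB.skew f, hf]⟩
          · exact ⟨y, hy, h2⟩
        · exact ⟨f, h1, by simp [hB.skew f, hf]⟩
      obtain ⟨x, hx⟩ := L.surj _ (hB.transv a 1).2
      refine stab_ne_top hu (g := x) fun h => a1 ?_
      rwa [hx, LinearEquiv.coe_coe, hB.transv_apply, add_mem_cancel_left hu, one_mul,
        Submodule.smul_mem_iff _ a2] at h, L.center_le_stab W⟩)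
    (fun J hJ => ⟨by
      have : Nontrivial V := nontrivial_of_finrank_pos (R := F) (by omega)
      obtain ⟨e, he⟩ := exists_ne (0 : V)
      obtain ⟨f, hf⟩ := hB.exists_pair he
      obtain ⟨x, hx⟩ := L.surj _ (hB.transv e 1).2
      exact shift_ne_top (g := x) (x₀ := f) (no_eigen_of_irr m2 (by omega) (aeval_cubic.2 hJ.2))
        (.inr (by omega)) (fun y => by rw [hx]; exact hB.transv_apply e 1 y) he (by simp [hf]),
      L.center_le_shift _ _⟩)
    (fun W U hW hU g hg => by
      obtain ⟨φ, hφ⟩ := exists_isometry (hB.restrict hW.1).good (hB.restrict hU.1).good (hW.2.trans hU.2.symm)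
      obtain ⟨z, z1, z2⟩ := witt_submodule hB.good hB.good rfl (U.subtype ∘ₗ φ.toLinearMap)
        (U.injective_subtype.comp φ.injective) hφ
      obtain ⟨x, hx⟩ := L.surj z z1
      refine ⟨x, conj_mem_stab hg (hx ▸ le_antisymm ?_ fun u hu => ⟨_, (φ.symm ⟨u, hu⟩).2,
        (z2 _).trans (by simp)⟩)⟩
      rintro _ ⟨u, hu, rfl⟩
      exact (z2 ⟨u, hu⟩).symm ▸ (φ _).2)
    (fun J J' hJ hJ' g ⟨c, hc, hg⟩ => by
      obtain ⟨y, y1, y2⟩ := hJ.exists_isom hB h2 hd ht hJ'
      obtain ⟨x, rfl⟩ := L.surj y y1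
      exact ⟨x, conj_mem_shift hc hg y2⟩)
    fun g => (sp6_cases hB hd ht (L.mem g) (g' := act g⁻¹) (by simp [← map_mul]) (by simp [← map_mul])).imp
      id fun ⟨J, h1, c, h2⟩ => ⟨J, h1, c, trivial, h2⟩
  exact cov_quot a1 a2 a3 a4 a5

end Cfsg.Agent.H5
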