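import Cfsg.Agent.H5.CovD
import Cfsg.Prelude.Def_G2

/-! Coverings of `G_2(2^a)` by two classes of subgroups. -/

set_option autoImplicit false

namespace Cfsg.Agent.H5

open Subgroup Module H1 Cfsg.Lie

variable {F : Type*} [Field F]

/-- The natural action of `G_2`. -/
def g2Act (F : Type*) [Field F] : G2 F →* End F (Fin 8 → F) :=
  (Matrix.toLinAlgEquiv' (R := F) (n := Fin 8)).toMonoidHom.comp ((Units.coeHom _).comp (G2 F).subtype)

theorem g2Act_mul (g : G2 F) (x y : Fin 8 → F) :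
    g2Act F g (zornMul x y) = zornMul (g2Act F g x) (g2Act F g y) := g.2 x y

theorem zorn_eq (x y : Fin 8 → F) : zornMul x y = ![x 0 * y 0 + (x 1 * y 4 + x 2 * y 5 + x 3 * y 6),
    x 0 * y 1 + y 7 * x 1 - (x 5 * y 6 - x 6 * y 5), x 0 * y 2 + y 7 * x 2 - (x 6 * y 4 - x 4 * y 6),
    x 0 * y 3 + y 7 * x 3 - (x 4 * y 5 - x 5 * y 4), y 0 * x 4 + x 7 * y 4 + (x 2 * y 3 - x 3 * y 2),
    y 0 * x 5 + x 7 * y 5 + (x 3 * y 1 - x 1 * y 3), y 0 * x 6 + x 7 * y 6 + (x 1 * y 2 - x 2 * y 1),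
    x 4 * y 1 + x 5 * y 2 + x 6 * y 3 + x 7 * y 7] := rfl

theorem exists_g2 (φ ψ : (Fin 8 → F) → Fin 8 → F) (h1 : ∀ x y, φ (x + y) = φ x + φ y)
    (h2 : ∀ (c : F) x, φ (c • x) = c • φ x) (h3 : ∀ x, φ (ψ x) = x)
    (h4 : ∀ x y, φ (zornMul x y) = zornMul (φ x) (φ y)) : ∃ g : G2 F, ∀ x, g2Act F g x = φ x := by
  let f : End F (Fin 8 → F) := ⟨⟨φ, h1⟩, h2⟩
  obtain ⟨A, hA⟩ := H4.exists_GL_toLin' (f := f) ((End.isUnit_iff f).2
    ⟨LinearMap.injective_iff_surjective.2 fun x => ⟨_, h3 x⟩, fun x => ⟨_, h3 x⟩⟩)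
  have : ∀ x, (A : Matrix (Fin 8) (Fin 8) F).mulVec x = φ x := LinearMap.congr_fun hA
  exact ⟨⟨A, fun x y => by simpa only [Units.coeHom_apply, this] using h4 x y⟩, this⟩

/-- The identity octonion. -/
def oOne : Fin 8 → F := ![1, 0, 0, 0, 0, 0, 0, 1]

/-- The trace. -/
def oT (x : Fin 8 → F) : F := x 0 + x 7

/-- The norm. -/
def oN (x : Fin 8 → F) : F := x 0 * x 7 - (x 1 * x 4 + x 2 * x 5 + x 3 * x 6)

theorem g2_one (g : G2 F) : g2Act F g oOne = oOne := by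
  have h : ∀ x : Fin 8 → F, zornMul oOne x = x ∧ zornMul x oOne = x := fun x => by
    constructor <;> ext i <;> fin_cases i <;> simp [zorn_eq, oOne]
  have := g2Act_mul g oOne (g2Act F g⁻¹ oOne)
  rw [(h _).1, act_apply_inv, (h _).2] at this
  exact this.symm

theorem g2_TN (g : G2 F) (x : Fin 8 → F) : oT (g2Act F g x) = oT x ∧ oN (g2Act F g x) = oN x := by
  have h : ∀ x : Fin 8 → F, zornMul x x = oT x • x - oN x • oOne := fun x => by
    ext i; fin_cases i <;> simp [zorn_eq, oOne, oT, oN] <;> ring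
  have h1 := g2Act_mul g x x
  rw [h, h, map_sub, map_smul, map_smul, g2_one] at h1
  by_cases h2 : oT (g2Act F g x) = oT x
  · refine ⟨h2, ?_⟩
    rw [h2, sub_right_inj] at h1
    simpa [oOne] using (congrFun h1 0).symm
  · obtain ⟨c, hc⟩ : ∃ c : F, g2Act F g x = c • oOne := ⟨(oN (g2Act F g x) - oN x) / (oT (g2Act F g x) - oT x), by
      rw [div_eq_inv_mul, mul_smul, eq_inv_smul_iff₀ (sub_ne_zero.2 h2)]
      linear_combination (norm := module) -h1⟩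
    have : g2Act F g x = x := by
      have := congrArg (g2Act F g⁻¹) hc
      rw [act_inv_apply, map_smul, g2_one] at this
      rw [hc, this]
    rw [this]; exact ⟨rfl, rfl⟩

/-- Conjugacy of octonions. -/
def ORel (x y : Fin 8 → F) : Prop := ∃ g : G2 F, g2Act F g x = y

theorem ORel.trans {x y z : Fin 8 → F} : ORel x y → ORel y z → ORel x z := by
  rintro ⟨g, rfl⟩ ⟨h, rfl⟩; exact ⟨h * g, act_mul_apply _ _ _ _⟩

theorem ORel.symm {x y : Fin 8 → F} : ORel x y → ORel y x := by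
  rintro ⟨g, rfl⟩; exact ⟨g⁻¹, act_inv_apply _ _ _⟩

theorem ORel.tn {x y : Fin 8 → F} : ORel x y → oT y = oT x ∧ oN y = oN x := by
  rintro ⟨g, rfl⟩; exact g2_TN g x

theorem orel_of (φ : F → (Fin 8 → F) → Fin 8 → F) (h1 : ∀ t x y, φ t (x + y) = φ t x + φ t y)
    (h2 : ∀ t (c : F) x, φ t (c • x) = c • φ t x) (h3 : ∀ t x, φ t (φ (-t) x) = x)
    (h4 : ∀ t x y, φ t (zornMul x y) = zornMul (φ t x) (φ t y)) (t : F) (x : Fin 8 → F) :
    ORel x (φ t x) :=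
  (exists_g2 (φ t) (φ (-t)) (h1 t) (h2 t) (h3 t) (h4 t)).imp fun _ h => h x

theorem orel01 (t : F) (x : Fin 8 → F) :
    ORel x ![x 0, x 1 + t * x 2, x 2, x 3, x 4, x 5 - t * x 4, x 6, x 7] := by
  refine orel_of (fun t x => ![x 0, x 1 + t * x 2, x 2, x 3, x 4, x 5 - t * x 4, x 6, x 7]) ?_ ?_ ?_ ?_ t x <;>
    intros <;> ext i <;> fin_cases i <;> simp [zorn_eq] <;> ring

theorem orel02 (t : F) (x : Fin 8 → F) :
    ORel x ![x 0, x 1 + t * x 3, x 2, x 3, x 4, x 5, x 6 - t * x 4, x 7] := by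
  refine orel_of (fun t x => ![x 0, x 1 + t * x 3, x 2, x 3, x 4, x 5, x 6 - t * x 4, x 7]) ?_ ?_ ?_ ?_ t x <;>
    intros <;> ext i <;> fin_cases i <;> simp [zorn_eq] <;> ring

theorem orel10 (t : F) (x : Fin 8 → F) :
    ORel x ![x 0, x 1, x 2 + t * x 1, x 3, x 4 - t * x 5, x 5, x 6, x 7] := by
  refine orel_of (fun t x => ![x 0, x 1, x 2 + t * x 1, x 3, x 4 - t * x 5, x 5, x 6, x 7]) ?_ ?_ ?_ ?_ t x <;>
    intros <;> ext i <;> fin_cases i <;> simp [zorn_eq] <;> ring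

theorem orel20 (t : F) (x : Fin 8 → F) :
    ORel x ![x 0, x 1, x 2, x 3 + t * x 1, x 4 - t * x 6, x 5, x 6, x 7] := by
  refine orel_of (fun t x => ![x 0, x 1, x 2, x 3 + t * x 1, x 4 - t * x 6, x 5, x 6, x 7]) ?_ ?_ ?_ ?_ t x <;>
    intros <;> ext i <;> fin_cases i <;> simp [zorn_eq] <;> ring

theorem orelL (t : F) (x : Fin 8 → F) : ORel x ![x 0 - t * x 1, x 1, x 2 - t * x 6, x 3 + t * x 5,
    x 4 + t * (x 0 - x 7) - t ^ 2 * x 1, x 5, x 6, x 7 + t * x 1] := by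
  refine orel_of (fun t x => ![x 0 - t * x 1, x 1, x 2 - t * x 6, x 3 + t * x 5,
    x 4 + t * (x 0 - x 7) - t ^ 2 * x 1, x 5, x 6, x 7 + t * x 1]) ?_ ?_ ?_ ?_ t x <;>
    intros <;> ext i <;> fin_cases i <;> simp [zorn_eq] <;> ring

theorem orelU (t : F) (x : Fin 8 → F) : ORel x ![x 0 + t * x 4, x 1 + t * (x 7 - x 0) - t ^ 2 * x 4, x 2, x 3,
    x 4, x 5 + t * x 3, x 6 - t * x 2, x 7 - t * x 4] := by
  refine orel_of (fun t x => ![x 0 + t * x 4, x 1 + t * (x 7 - x 0) - t ^ 2 * x 4, x 2, x 3,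
    x 4, x 5 + t * x 3, x 6 - t * x 2, x 7 - t * x 4]) ?_ ?_ ?_ ?_ t x <;>
    intros <;> ext i <;> fin_cases i <;> simp [zorn_eq] <;> ring

theorem orel_a {x : Fin 8 → F} (h : x 1 ≠ 0 ∨ x 2 ≠ 0 ∨ x 3 ≠ 0) :
    ∃ y, ORel x y ∧ y 0 = x 0 ∧ y 7 = x 7 ∧ y 1 = 1 ∧ y 2 = 0 ∧ y 3 = 0 := by
  have k1 : ∀ {x : Fin 8 → F}, x 1 = 1 → ∃ y, ORel x y ∧ y 0 = x 0 ∧ y 7 = x 7 ∧ y 1 = 1 ∧ y 2 = 0 ∧ y 3 = 0 :=
    fun {x} h => ⟨_, (orel10 (-x 2) x).trans (orel20 (-x 3) _), by simp [h]⟩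
  have k2 : ∀ {x : Fin 8 → F}, x 2 ≠ 0 → ∃ y, ORel x y ∧ y 0 = x 0 ∧ y 7 = x 7 ∧ y 1 = 1 ∧ y 2 = 0 ∧ y 3 = 0 :=
    fun {x} h => by
      have := orel01 ((1 - x 1) / x 2) x
      obtain ⟨y, h1, h2⟩ := k1 (x := ![x 0, x 1 + (1 - x 1) / x 2 * x 2, x 2, x 3, x 4,
        x 5 - (1 - x 1) / x 2 * x 4, x 6, x 7]) (by simp [h])
      exact ⟨y, this.trans h1, h2⟩
  by_cases h2 : x 2 = 0
  swap
  · exact k2 h2
  rcases h with h | h | h
  · obtain ⟨y, h1, h2⟩ := k2 (x := ![x 0, x 1, x 2 + 1 * x 1, x 3, x 4 - 1 * x 5, x 5, x 6, x 7]) (by simpa [h2])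
    exact ⟨y, (orel10 1 x).trans h1, h2⟩
  · exact k2 h
  · obtain ⟨y, h1, h2⟩ := k1 (x := ![x 0, x 1 + (1 - x 1) / x 3 * x 3, x 2, x 3, x 4,
        x 5, x 6 - (1 - x 1) / x 3 * x 4, x 7]) (by simp [h])
    exact ⟨y, (orel02 _ x).trans h1, h2⟩

theorem orel_nf' {x : Fin 8 → F} (h : x 0 * x 7 ≠ oN x) : ORel x ![0, 1, 0, 0, -oN x, 0, 0, oT x] := by
  obtain ⟨y, r, y0, y7, y1, y2, y3⟩ := orel_a (x := x) (by
    by_contra h'
    push Not at h'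
    simp [oN, h'] at h)
  have h4 : y 4 ≠ 0 := fun h4 => h (by rw [← r.tn.2, ← y0, ← y7]; simp [oN, h4, y2, y3])
  have := r.trans (((orel01 (y 5 / y 4) y).trans (orel02 (y 6 / y 4) _)).trans (orelL (y 0) _))
  rw [← r.tn.1, ← r.tn.2]
  convert this using 1
  ext i
  fin_cases i <;> simp [oT, oN, y1, y2, y3, h4] <;> ring

theorem orel_nf [CharP F 2] {ω : F} (h0 : ω ≠ 0) (h1 : ω ≠ 1) {x : Fin 8 → F} (h : oT x = 1) :
    ORel x ![0, 1, 0, 0, -oN x, 0, 0, 1] := by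
  have h2 : (2 : F) = 0 := CharP.cast_eq_zero F 2
  obtain ⟨y, r, hy⟩ : ∃ y, ORel x y ∧ (y 1 ≠ 0 ∨ y 2 ≠ 0 ∨ y 3 ≠ 0) := by
    by_cases hx : x 1 = 0
    · unfold oT at h
      by_cases h4 : x 4 = 1
      · exact ⟨_, orelU ω x, .inl (by simp [hx, h4]; grind)⟩
      · exact ⟨_, orelU 1 x, .inl (by simp [hx]; grind)⟩
    · exact ⟨x, ⟨1, by simp⟩, .inl hx⟩
  obtain ⟨z, r', -, -, z1, -, -⟩ := orel_a hy
  replace r := r.trans r'
  have zt : z 0 + z 7 = 1 := r.tn.1.trans h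
  obtain ⟨t, ht⟩ : ∃ t, (z 0 - t) * (z 7 + t) ≠ oN x := by
    by_cases hn : oN x = 0
    · exact ⟨z 0 - ω, by grind⟩
    · exact ⟨z 0, by simpa using Ne.symm hn⟩
  replace r := r.trans (orelL t z)
  have := orel_nf' (fun e => ht (by rw [r.tn.2] at e; simpa [z1] using e))
  rw [r.tn.1, r.tn.2, h] at this
  exact r.trans this

theorem cov_g2 [Finite F] [CharP F 2] {ω : F} (h0 : ω ≠ 0) (h1 : ω ≠ 1) : Cov2 (G2 F) := by
  have h2 : (2 : F) = 0 := CharP.cast_eq_zero F 2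
  have tr : ∀ {x y : Fin 8 → F}, oT x = 1 → oT y = 1 → oN x = oN y → ORel x y := fun hx hy h =>
    (orel_nf h0 h1 hx).trans (h ▸ (orel_nf h0 h1 hy).symm)
  have mem : ∀ {a y : Fin 8 → F}, y ∈ (F ∙ oOne) ⊔ (F ∙ a) ↔ ∃ r s : F, r • oOne + s • a = y := by
    simp [Submodule.mem_sup, Submodule.mem_span_singleton]
  have pr : ∀ a : Fin 8 → F, oT a = 1 → stabSub (g2Act F) ((F ∙ oOne) ⊔ (F ∙ a)) ≠ ⊤ := fun a ha e => by
    have key : ∀ y, oT y = 1 → oN y = oN a → ∃ r : F, r • oOne + a = y := fun y h3 h4 => by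
      obtain ⟨g, rfl⟩ := tr ha h3 h4.symm
      obtain ⟨r, s, hs⟩ := mem.1 ((e ▸ mem_top g : g ∈ stabSub (g2Act F) _) a (mem.2 ⟨0, 1, by simp⟩))
      have := congrArg oT hs
      rw [h3] at this
      simp only [oT, oOne] at this ha
      simp at this
      obtain rfl : s = 1 := by grind
      exact ⟨r, by simpa using hs⟩
    obtain ⟨r, hr⟩ := key ![0, 1, 0, 0, -oN a, 0, 0, 1] (by simp [oT]) (by simp [oN])
    obtain ⟨s, hs⟩ := key ![0, 0, 1, 0, 0, -oN a, 0, 1] (by simp [oT]) (by simp [oN])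
    have e1 := congrFun hr 1
    have e2 := congrFun hs 1
    simp [oOne] at e1 e2
    simp [e1] at e2
  have t : ∀ a b : Fin 8 → F, oT a = 1 → oT b = 1 → (∃ s, s ^ 2 + s = oN a + oN b) →
      ∀ g ∈ stabSub (g2Act F) ((F ∙ oOne) ⊔ (F ∙ a)),
        ∃ x, x * g * x⁻¹ ∈ stabSub (g2Act F) ((F ∙ oOne) ⊔ (F ∙ b)) := by
    rintro a b ha hb ⟨s, hs⟩ g hg
    obtain ⟨x, hx⟩ := tr (x := a + s • oOne) (y := b) (by simp [oT, oOne] at ha ⊢; grind) hb
      (by rw [← add_right_inj (oN a), ← hs]; simp [oT, oN, oOne] at ha ⊢; grind)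
    rw [map_add, map_smul, g2_one] at hx
    refine ⟨x, conj_mem_stab hg (Submodule.ext fun y => ?_)⟩
    rw [Submodule.map_sup, Submodule.map_span, Submodule.map_span, Set.image_singleton, Set.image_singleton,
      g2_one, mem, mem, ← hx]
    exact ⟨fun ⟨r, c, h⟩ => ⟨r - c * s, c, by rw [← h]; module⟩,
      fun ⟨r, c, h⟩ => ⟨r + c * s, c, by rw [← h]; module⟩⟩
  let B : Bil F (Fin 8 → F) := LinearMap.mk₂ F (fun x y => x 0 * y 7 + x 7 * y 0 - (x 1 * y 4 + x 2 * y 5 +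
    x 3 * y 6 + x 4 * y 1 + x 5 * y 2 + x 6 * y 3)) (fun _ _ _ => by simp; ring) (fun _ _ _ => by simp; ring)
    (fun _ _ _ => by simp; ring) (fun _ _ _ => by simp; ring)
  have B1 : ∀ x y, B x y = oN (x + y) - oN x - oN y := fun x y => by simp [B, oN]; ring
  have B2 : ∀ x, B oOne x = oT x := fun x => by simp [B, oOne, oT, add_comm]
  have hB : IsEps B 1 := ⟨fun _ => rfl, fun x y => by simp [B]; ring, fun u hu => by
    have := fun i => hu (Pi.single i 1)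
    have a0 := this 0
    have a1 := this 1
    have a2 := this 2
    have a3 := this 3
    have a4 := this 4
    have a5 := this 5
    have a6 := this 6
    have a7 := this 7
    simp [B] at a0 a1 a2 a3 a4 a5 a6 a7
    ext i; fin_cases i <;> simp [*]⟩
  obtain ⟨H, K, a1, a2, -, -, a5⟩ := cov_of ⊥ (fun a => oT a = 1 ∧ ∃ s, s ^ 2 + s = oN a)
    (fun a => oT a = 1 ∧ ¬ ∃ s, s ^ 2 + s = oN a) _ _ (fun a h => ⟨pr a h.1, bot_le⟩)
    (fun a h => ⟨pr a h.1, bot_le⟩)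
    (fun a b ⟨ha, s, hs⟩ ⟨hb, r, hr⟩ => t a b ha hb ⟨s + r, by linear_combination hs + hr + s * r * h2⟩)
    (fun a b ha hb => t a b ha.1 hb.1 (wp_add ha.2 hb.2)) fun g => by
      obtain ⟨a, a1, a2⟩ : ∃ a, g2Act F g a - a ∈ (F ∙ oOne) ∧ oT a = 1 := by
        by_contra h
        obtain ⟨ψ, hψ⟩ := exists_comp_of_ker_le ((F ∙ oOne).mkQ ∘ₗ (g2Act F g - 1)) (B oOne) fun v hv => by
          by_contra h'
          refine h ⟨(B oOne v)⁻¹ • v, ?_, by rw [← B2, map_smul, smul_eq_mul, inv_mul_cancel₀ h']⟩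
          rw [map_smul, ← smul_sub]
          exact Submodule.smul_mem _ _ ((Submodule.Quotient.mk_eq_zero _).1 hv)
        obtain ⟨y, hy⟩ := hB.exists_rep (ψ ∘ₗ (F ∙ oOne).mkQ)
        have y1 : B y oOne = 0 := by
          rw [hy, LinearMap.comp_apply, Submodule.mkQ_apply,
            (Submodule.Quotient.mk_eq_zero _).2 (Submodule.mem_span_singleton_self _), map_zero]
        have y2 : g2Act F g⁻¹ y = y + oOne := hB.ext_left fun v => by
          rw [map_add, LinearMap.add_apply, ← hψ, B1, ← (g2_TN g (_ + _)).2, ← (g2_TN g v).2,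
            (g2_TN g⁻¹ y).2, map_add, act_apply_inv, ← B1]
          exact (sub_eq_iff_eq_add'.1 ((map_sub (B y) _ _).symm.trans (hy _)))
        have := (g2_TN g⁻¹ y).2
        rw [y2] at this
        rw [B1, this] at y1
        simp [oN, oOne] at y1
      have : g ∈ stabSub (g2Act F) ((F ∙ oOne) ⊔ (F ∙ a)) := fun v hv => by
        obtain ⟨r, s, rfl⟩ := mem.1 hv
        obtain ⟨c, hc⟩ := Submodule.mem_span_singleton.1 a1
        exact mem.2 ⟨r + s * c, s, by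
          rw [map_add, map_smul, map_smul, g2_one, ← sub_add_cancel (g2Act F g a) a, ← hc]; module⟩
      exact (em _).imp (fun h => ⟨a, ⟨a2, h⟩, this⟩) fun h => ⟨a, ⟨a2, h⟩, this⟩
  exact ⟨H, K, a1, a2, a5⟩

end Cfsg.Agent.H5
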