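import Cfsg.Agent.H5.QCls
import Cfsg.Agent.H5.Gen2
import Cfsg.Agent.H5.Gen2Sp
import Cfsg.Agent.H5.OrthA
import Cfsg.Agent.H5.UField
import Cfsg.Agent.H6.COrth
import Cfsg.Agent.H6.FieldGen

/-! Two generators for the orthogonal groups: the reduction and the Singer model. -/

set_option autoImplicit false

namespace Cfsg.Agent.H5

open Module Subgroup Polynomial H1 H6 H6.OF

variable {F : Type*} [Field F] {V W : Type*} [AddCommGroup V] [Module F V] [AddCommGroup W] [Module F W]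
  {P : QuadraticForm F V} {Q : QuadraticForm F W}

theorem pb_prod (x y : V × W) : pb (P.prod Q) x y = pb P x.1 y.1 + pb Q x.2 y.2 := by
  simp [pb_def]; ring

theorem nondeg_prod (h : (pb P).Nondegenerate) (h' : (pb Q).Nondegenerate) : (pb (P.prod Q)).Nondegenerate :=
  nondeg_of_left F _ fun u hu => Prod.ext (h.1 _ fun v => by simpa [pb_prod] using hu (v, 0))
    (h'.1 _ fun v => by simpa [pb_prod] using hu (0, v))

/-- The orthogonal sum of two isometries. -/
def ogProd (g : OG P) (h : OG Q) : OG (P.prod Q) := ⟨g.1.prodCongr h.1, fun v => by simp [OG_Q]⟩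

theorem ogProd_apply (g : OG P) (h : OG Q) (v : V × W) : (ogProd g h).1 v = (g.1 v.1, h.1 v.2) := rfl

theorem finrank_mvS_prod [FiniteDimensional F V] [FiniteDimensional F W] (g : OG P) (h : OG Q) :
    finrank F (mvS (ogProd g h)) = finrank F (mvS g) + finrank F (mvS h) := by
  rw [← finrank_prod, ← LinearMap.finrank_range_of_inj (f := (mvS g).subtype.prodMap (mvS h).subtype)
    (Subtype.val_injective.prodMap Subtype.val_injective), LinearMap.range_prodMap, Submodule.range_subtype,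
    Submodule.range_subtype, mvS, mvS, mvS, ← LinearMap.range_prodMap]
  rfl

variable (F) in
/-- The hyperbolic plane. -/
def hypQ : QuadraticForm F (F × F) := QuadraticMap.linMulLin (LinearMap.fst F F F) (LinearMap.snd F F F)

theorem hypQ_apply (x : F × F) : hypQ F x = x.1 * x.2 := rfl

theorem pb_hypQ (x y : F × F) : pb (hypQ F) x y = x.1 * y.2 + x.2 * y.1 := by
  simp [pb_def, hypQ_apply]; ring

theorem hypQ_nondeg : (pb (hypQ F)).Nondegenerate :=
  nondeg_of_left F _ fun u hu => Prod.ext (by simpa [pb_hypQ] using hu (0, 1)) (by simpa [pb_hypQ] using hu (1, 0))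

variable [Fintype F] [DecidableEq F] [FiniteDimensional F W]

theorem exists_qc_theta (hB : (pb Q).Nondegenerate) (hN : BigEnough F W) (g : OG Q) :
    ∃ c : F, c ≠ 0 ∧ theta g = quadraticChar F c := by
  rcases theta_dichotomy hB hN g with h | h
  · exact ⟨1, one_ne_zero, by simp [h]⟩
  obtain ⟨c, hc⟩ := quadraticChar_exists_neg_one (F := F) fun e => by
    have : CharP F 2 := e ▸ ringChar.charP F
    simp [theta_eq_one_of_char_two hB hN] at h
  exact ⟨c, fun e => by simp [e] at hc, h.trans hc.symm⟩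

theorem twoGen_prod (hQ : (pb Q).Nondegenerate) (h3 : 3 ≤ finrank F W) {g n : OG Q} (g1 : Even (finrank F (mvS g)))
    (n1 : ¬ Even (finrank F (mvS n))) (hc : Commute g (n * g * n⁻¹)) {ζ : F} (hζ : ζ ≠ 0)
    (hθ : theta (ogProd (1 : OG (hypQ F)) g) = quadraticChar F ζ) (x : W)
    (hA : ∀ A : AddSubgroup W, (∀ v ∈ A, ζ • g.1 v ∈ A) →
      (ζ • g.1 x - x) - ζ⁻¹ • (n * g * n⁻¹).1 (ζ • g.1 x - x) ∈ A → ∀ v, v ∈ A) :
    TwoGen (Om ((hypQ F).prod Q)) := by
  have h : OH ((hypQ F).prod Q) := ⟨nondeg_prod hypQ_nondeg hQ, by simp; omega⟩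
  have hN : BigEnough F ((F × F) × W) := Or.inl h.big
  have r0 : ∀ c : F, ((hypQ F).prod Q) ((1, c), 0) = c := fun c => by simp [hypQ_apply]
  have r1 : ∀ {c : F}, c ≠ 0 → ∀ v, (refl ((hypQ F).prod Q) ((1, c), 0)).1 v = ((-c⁻¹ * v.1.2, -c * v.1.1), v.2) :=
    fun hc v => by
      rw [refl_apply, r0, pb_prod, pb_hypQ]
      refine Prod.ext (Prod.ext ?_ ?_) ?_ <;> simp <;> field_simp <;> ring
  have r2 : ∀ {c : F}, c ≠ 0 → dick h.nd hN (refl ((hypQ F).prod Q) ((1, c), 0)) = -1 := fun hc =>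
    dick_refl _ _ (by rwa [r0])
  have r3 : ∀ {c : F}, c ≠ 0 → theta (refl ((hypQ F).prod Q) ((1, c), 0)) = quadraticChar F c := fun hc => by
    rw [theta_refl h.nd (by rwa [r0]), r0]
  have r4 : ∀ k : OG Q, dick h.nd hN (ogProd 1 k) = (-1) ^ finrank F (mvS k) := fun k => by
    rw [dick_apply, finrank_mvS_prod, mvS_one, finrank_bot, zero_add]
  obtain ⟨c, c0, c1⟩ := exists_qc_theta h.nd hN (ogProd 1 n)
  obtain ⟨a, a1⟩ : ∃ a : Om ((hypQ F).prod Q), ∀ v, a.1.1 v = ((ζ * v.1.1, ζ⁻¹ * v.1.2), g.1 v.2) :=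
    ⟨⟨refl ((hypQ F).prod Q) ((1, 1), 0) * refl _ ((1, ζ), 0) * ogProd 1 g, (mem_commutator_OG h.nd hN _).2 ⟨(dick_eq_one_iff h.nd hN _).1
      (by rw [map_mul, map_mul, r2 hζ, r2 one_ne_zero, r4, g1.neg_one_pow]; rfl), by
        rw [theta_mul h.nd hN, theta_mul h.nd hN, r3 hζ, r3 one_ne_zero, hθ, map_one, one_mul, qc_sq hζ]⟩⟩, fun v => by
      simp [OG_mul_apply, r1 hζ, r1 one_ne_zero, ogProd_apply]⟩
  obtain ⟨m, m1⟩ : ∃ m : Om ((hypQ F).prod Q), ∀ v, m.1.1 v = ((-c⁻¹ * v.1.2, -c * v.1.1), n.1 v.2) :=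
    ⟨⟨refl ((hypQ F).prod Q) ((1, c), 0) * ogProd 1 n, (mem_commutator_OG h.nd hN _).2 ⟨(dick_eq_one_iff h.nd hN _).1
      (by rw [map_mul, r2 c0, r4, (Nat.not_even_iff_odd.1 n1).neg_one_pow]; rfl), by
        rw [theta_mul h.nd hN, r3 c0, c1, qc_sq c0]⟩⟩, fun v => by simp [OG_mul_apply, r1 c0, ogProd_apply]⟩
  let j := (uEquiv ((hypQ F).prod Q)).toMonoidHom.comp (commutator _).subtype
  have j0 : Function.Injective j := (uEquiv _).injective.comp Subtype.val_injective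
  have j1 : ∀ {p y}, ((hypQ F).prod Q) p = 0 → pb ((hypQ F).prod Q) p y = 0 →
      (ofQ ((hypQ F).prod Q)).Ok p (-y) (-((hypQ F).prod Q) y) ∧
        j (h.ez p y) = (ofQ ((hypQ F).prod Q)).T p (-y) (-((hypQ F).prod Q) y) := fun {p y} h1 h2 => by
    have : (ofQ ((hypQ F).prod Q)).Ok p (-y) (-((hypQ F).prod Q) y) :=
      ⟨by rw [ofQ_Λ, h1, _root_.neg_zero], by rw [ofQ_B, pb_comm, map_neg, h2, _root_.neg_zero], by rw [ofQ_Λ, Q_neg]⟩
    refine ⟨this, U_ext fun v => (h.ez_apply h1 h2 v).trans ?_⟩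
    rw [this.T_smul, ofQ_B, ofQ_B, ofQ_η, map_neg]
    module
  have a2 : ∀ v, j a • v = ((ζ * v.1.1, ζ⁻¹ * v.1.2), g.1 v.2) := a1
  have m2 : ∀ v, j m • v = ((-c⁻¹ * v.1.2, -c * v.1.1), n.1 v.2) := m1
  have a3 : ∀ v, (j m * j a * (j m)⁻¹) • v = ((ζ⁻¹ * v.1.1, ζ * v.1.2), (n * g * n⁻¹).1 v.2) := fun v => by
    obtain ⟨v, rfl⟩ := (MulAction.toPerm (j m)).surjective v
    rw [MulAction.toPerm_apply, mul_smul, inv_smul_smul, mul_smul, a2, m2, m2, mul_left_comm (-c), mul_left_comm (-c⁻¹)]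
    simp [OG_mul_apply]
  have u1 := j1 (p := ((1, 0), 0)) (y := -(0, x)) (r0 0) (by simp [pb_prod])
  rw [neg_neg] at u1
  refine ⟨a, h.ez ((1, 0), 0) (-(0, x)) * m, h.eq_top _ fun p y h1 h2 => ?_⟩
  rw [← mem_map_iff_mem j0, (j1 h1 h2).2]
  refine rad_of_two (O := ofQ ((hypQ F).prod Q)) (e := ((1, 0), 0)) (f := ((0, 1), 0)) (ζ := ζ) (ζ' := ζ⁻¹) (c := -c⁻¹) (a := j a) (n := j m)
    h.nd.1 (by simp [ofQ_Λ, hypQ_apply]) (by simp [ofQ_Λ, hypQ_apply]) (by simp [ofQ_B, pb_prod, pb_hypQ]) hζ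
    (inv_ne_zero hζ) (by simpa) (by simp [a2]) (by simp [a3])
    (U_ext fun v => by
      rw [mul_smul (j a), mul_smul _ (j a) v, a2, a3, a3, a2, mul_left_comm ζ ζ⁻¹, mul_left_comm ζ ζ⁻¹, ← OG_mul_apply,
        hc.eq]; rfl) (by simp [m2])
    ⟨_, u1.1, u1.2⟩ (mem_map_of_mem _ (subset_closure (by simp)))
    (by rw [← map_mul]; exact mem_map_of_mem _ (subset_closure (by simp))) (fun A A1 A2 v v1 v2 => ?_)
    (fun β hβ => ⟨0, 0, by simp, by simp, by simp, by simp, by simpa [ofQ_Λ] using hβ⟩) p _ _ (j1 h1 h2).1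
  have := hA (A.comap (AddMonoidHom.inr _ _)) (fun w hw => by simpa [a2, ofQ_σ, Prod.mk_zero_zero] using A1 _ hw)
    (by
      rw [AddSubgroup.mem_comap]
      convert A2 using 1
      simp [a2, a3, ofQ_σ, Prod.mk_zero_zero]) v.2
  rwa [show v = (0, v.2) from Prod.ext (Prod.ext (by simpa [ofQ_B, pb_prod, pb_hypQ] using v2)
    (by simpa [ofQ_B, pb_prod, pb_hypQ] using v1)) rfl]

local notation "q" => Fintype.card F

/-- A Singer cycle of an orthogonal group of minus type. -/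
structure Singer {L : Type} [Field L] [Algebra F L] [Fintype L] [DecidableEq L] (Q : QuadraticForm F L) (k : ℕ) (η : L)
    (g n : OG Q) : Prop where
  dim : finrank F L = 2 * k
  nd : (pb Q).Nondegenerate
  prim : IsPrimitiveRoot η (q ^ k + 1)
  g_apply : ∀ x, g.1 x = η * x
  n_apply : ∀ x, (n * g * n⁻¹).1 x = η ^ q * x
  ev : Even (finrank F (mvS g))
  od : ¬ Even (finrank F (mvS n))
  cnt : ∀ c, q ^ k + 1 ∣ (Finset.univ.filter fun l => l ≠ 0 ∧ Q l = c).card
  gen : ∀ ζ : F, ζ ≠ 0 → ∀ A : AddSubgroup L, (∀ v ∈ A, ζ • (η * v) ∈ A) → ∀ y ∈ A, y ≠ 0 → ∀ v, v ∈ A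
  ne : ∀ ζ : F, η ≠ algebraMap F L ζ
  spin : (2 : F) ≠ 0 → quadraticChar F (Algebra.norm F (2 * (η + 1))) = -1
  aniso : k = 1 → ∀ x, Q x = 0 → x = 0

variable (F) in
theorem exists_singer {k : ℕ} (hk : k ≠ 0) : ∃ (L : Type) (_ : Field L) (_ : Algebra F L) (_ : Fintype L)
    (_ : DecidableEq L) (Q : QuadraticForm F L) (η : L) (g n : OG Q), Singer Q k η g n := by
  classical
  obtain ⟨L, _, _, _, hL⟩ := exists_ext F (m := 2 * k) (by omega)
  have := Fintype.ofFinite L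
  let φ := FiniteField.frobeniusAlgEquivOfAlgebraic F L
  have φ1 : ∀ x, φ x = x ^ q := fun _ => rfl
  obtain ⟨σ, σ1⟩ : ∃ σ : L ≃ₐ[F] L, ∀ x, σ x = x ^ q ^ k := ⟨φ ^ k, fun x => by
    rw [AlgEquiv.coe_pow, FiniteField.coe_frobeniusAlgEquivOfAlgebraic_iterate]⟩
  have h : UF (σ : L →+* L) (q ^ k) := ⟨by rw [Module.card_eq_pow_finrank (K := F), hL, ← pow_mul, mul_comm], σ1⟩
  have hs := h.two_le
  have σσ : ∀ x, σ (σ x) = x := h.invol
  have σφ : ∀ x, σ (φ x) = φ (σ x) := fun x => by rw [σ1, σ1, map_pow]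
  obtain ⟨c, hc⟩ : ∃ c, σ c + c = 1 := h.exists_trace_one
  obtain ⟨z, hz⟩ := h.exists_gen
  have z1 : 0 < (q ^ k + 1) * (q ^ k - 1) := Nat.mul_pos (by omega) (by omega)
  have z0 := hz.ne_zero z1.ne'
  have η1 := hz.pow z1 (mul_comm _ _)
  have η2 : z ^ (q ^ k - 1) * z = σ z := by rw [σ1, ← pow_succ, Nat.sub_add_cancel h.pos]
  generalize z ^ (q ^ k - 1) = η at η1 η2
  have η3 : η * σ η = 1 := (h.norm_eq η).trans η1.pow_eq_one
  have η4 : ∀ {i}, η ^ i = 1 → q ^ k + 1 ∣ i := η1.dvd_of_pow_eq_one _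
  have η5 : σ η ≠ η := fun e => absurd (Nat.le_of_dvd two_pos (η4 (by rw [sq, ← η3, e]))) (by omega)
  have η6 : ∀ ζ : F, η ≠ algebraMap F L ζ := fun ζ e => η5 (by rw [e, AlgEquiv.commutes])
  have t1 : ∀ x, Algebra.trace F L (σ x) = Algebra.trace F L x := Algebra.trace_eq_of_algEquiv σ
  obtain ⟨Q, Q1⟩ : ∃ Q : QuadraticForm F L, ∀ x, Q x = Algebra.trace F L (c * (x * σ x)) :=
    ⟨qf (((LinearMap.mul F L).compl₂ σ.toLinearMap).compr₂ (Algebra.trace F L ∘ₗ LinearMap.mulLeft F c)), fun _ => rfl⟩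
  have Q2 : ∀ x y, pb Q x y = Algebra.trace F L (x * σ y) := fun x y => by
    rw [pb_def, Q1, Q1, Q1, ← map_sub, ← map_sub, show c * ((x + y) * σ (x + y)) - c * (x * σ x) - c * (y * σ y) =
      c * (x * σ y) + c * (y * σ x) by rw [map_add]; ring, map_add, ← t1 (c * (y * _)), ← map_add]
    simp only [map_mul, σσ]
    congr 1; linear_combination x * σ y * hc
  have nd : (pb Q).Nondegenerate := nondeg_of_left F _ fun u hu => (traceForm_nondegenerate F L).1 u fun v => by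
    simpa [Q2, σσ] using hu (σ v)
  let g := mkOG nd (LinearMap.mulLeft F η) fun v => by
    rw [Q1, Q1, LinearMap.mulLeft_apply, map_mul σ, mul_mul_mul_comm η, η3, one_mul]
  let n : OG Q := ⟨φ.toLinearEquiv, fun v => by
    change Q (φ v) = _
    have a : σ (φ c) + φ c = 1 := by rw [σφ, ← map_add, hc, map_one]
    have := t1 ((c - φ c) * c * φ (v * σ v))
    rw [Q1, Q1, ← Algebra.trace_eq_of_algEquiv φ (c * (v * _)), ← sub_eq_zero, ← map_sub, ← sub_eq_zero.2 this.symm,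
      ← map_sub]
    congr 1
    simp only [map_mul, map_sub, σφ v, σφ (σ v), σσ]
    linear_combination φ v * φ (σ v) * (σ c - (c - φ c)) * hc - φ v * φ (σ v) * σ c * a⟩
  refine ⟨L, inferInstance, inferInstance, inferInstance, inferInstance, Q, η, g, n, hL, nd, η1, fun _ => rfl,
    fun x => ?_, ?_, fun e => ?_, fun d => ?_, fun ζ hζ A hA y hy y0 v => ?_, η6, fun h2 => ?_, fun e x hx => ?_⟩
  · change φ (η * φ.symm x) = _
    rw [map_mul, φ.apply_symm_apply, φ1]
  · have := finrank_mvS_add g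
    rw [(Submodule.eq_bot_iff (fxS g)).2 fun x hx => (mul_left_eq_self₀.1 (mem_fxS.1 hx)).resolve_left
      (by simpa using η6 1), hL] at this
    exact ⟨k, by simpa [two_mul] using this⟩
  · have := finrank_mvS_add n
    rw [show fxS n = F ∙ 1 from Submodule.ext fun x => mem_fxS.trans ⟨fun e => by
      obtain ⟨a, rfl⟩ := mem_range_of_pow_card (F := F) L e
      exact Submodule.mem_span_singleton.2 ⟨a, (Algebra.algebraMap_eq_smul_one a).symm⟩, fun e => by
        obtain ⟨a, rfl⟩ := Submodule.mem_span_singleton.1 e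
        exact (map_smul φ a 1).trans (by rw [map_one])⟩, finrank_span_singleton one_ne_zero, hL] at this
    obtain ⟨r, e⟩ := e
    omega
  · rw [Finset.card_eq_sum_card_image fun x => x * σ x]
    refine Finset.dvd_sum fun y hy => ?_
    obtain ⟨x, hx, rfl⟩ := Finset.mem_image.1 hy
    simp only [Finset.mem_filter, Finset.mem_univ, true_and] at hx
    have x0 : x * σ x ≠ 0 := by simpa using hx.1
    rw [← h.card_norm_eq (h.norm_fixed x) x0, Nat.card_eq_fintype_card, Fintype.card_subtype]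
    refine dvd_of_eq (congrArg _ (Finset.ext fun w => ?_))
    simp only [Finset.mem_filter, Finset.mem_univ, true_and]
    exact ⟨fun e : w * σ w = x * σ x => ⟨⟨fun e' => x0 (by rw [← e, e', zero_mul]), by rw [Q1, e, ← Q1, hx.2]⟩, e⟩,
      And.right⟩
  · rcases aeval_surj_or (algebraMap F L ζ * η) with e | ⟨r, d, r2, d2, e1, e2⟩
    · obtain ⟨f, hf⟩ := e (v / y)
      rw [← div_mul_cancel₀ v y0, ← hf]
      clear hf
      induction f using Polynomial.induction_on with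
      | C a => simpa using A.zsmul_mem hy a
      | add _ _ a b => simpa [add_mul] using A.add_mem a b
      | monomial i a e => simpa [pow_succ', Algebra.smul_def, mul_assoc, mul_left_comm] using hA _ e
    have ζ0 := (map_ne_zero (algebraMap F L)).2 hζ
    obtain ⟨r, rfl⟩ : ∃ t, r = t + 1 := ⟨r - 1, by omega⟩
    rw [h.card] at e1
    obtain rfl | d3 := d2.eq_or_lt
    · rw [← (Nat.pow_left_injective two_ne_zero e1 :), ← σ1, map_mul, AlgEquiv.commutes] at e2
      exact absurd (mul_left_cancel₀ ζ0 e2) η5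
    rw [pow_succ, mul_eq_right₀ (mul_ne_zero ζ0 (left_ne_zero_of_mul_eq_one η3)), mul_pow] at e2
    have e3 := congrArg σ e2
    rw [map_mul, map_pow, map_pow, AlgEquiv.commutes, map_one, ← e2, mul_right_inj' (pow_ne_zero _ ζ0)] at e3
    have := Nat.le_of_dvd (by omega) (η4 (i := 2 * r) (by
      rw [two_mul, pow_add, ← one_pow r, ← η3, mul_pow, e3]))
    have := Nat.pow_le_pow_right r.succ_pos d3
    rw [← e1] at this
    nlinarith [Nat.pow_le_pow_left (show q ^ k ≤ 2 * r by omega) 2]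
  · obtain ⟨a, ha⟩ := h.norm_surj (c := 2 * (σ z + z)) (by simp [σσ, map_ofNat, add_comm])
    have a0 : Algebra.norm F a ≠ 0 := Algebra.norm_ne_zero_iff.2 fun e => by
      have : (2 : L) ≠ 0 := by simpa only [map_ofNat] using (map_ne_zero (algebraMap F L)).2 h2
      refine η6 (-1) (mul_right_cancel₀ z0 (mul_left_cancel₀ this ?_))
      rw [e, zero_mul] at ha
      rw [η2, map_neg, map_one]
      linear_combination -ha
    have b1 : quadraticChar F (Algebra.norm F z) = -1 := quadraticChar_neg_one_iff_not_isSquare.2 fun e => by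
      obtain ⟨b, hb⟩ := FiniteField.exists_nonsquare (ringChar_ne_two h2)
      obtain ⟨x, rfl⟩ := FiniteField.norm_surjective F L b
      have : NeZero ((q ^ k + 1) * (q ^ k - 1)) := ⟨z1.ne'⟩
      obtain ⟨i, -, rfl⟩ := hz.eq_pow_of_pow_eq_one (ξ := x) (by
        rw [← h.card_units, Nat.card_units, Nat.card_eq_fintype_card]
        exact FiniteField.pow_card_sub_one_eq_one x fun e => hb (by simp [e]))
      exact hb (map_pow (Algebra.norm F) z i ▸ e.pow i)
    have b2 : 2 * (η + 1) * z = a * σ a := by rw [show a * σ a = _ from ha, ← η2]; ring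
    have := congrArg (fun x => quadraticChar F (Algebra.norm F x)) b2
    simp only [map_mul _ _ z, map_mul _ a, map_mul _ _ (Algebra.norm F z), map_mul _ (Algebra.norm F a),
      Algebra.norm_eq_of_algEquiv, b1, qc_sq a0] at this
    omega
  · subst e
    have a : ∀ x, ∃ a, algebraMap F L a = x * σ x ∧ Q x = a * Algebra.trace F L c := fun x => by
      obtain ⟨a, ha⟩ := mem_range_of_pow_card (F := F) L (x := x * σ x) (by
        rw [← pow_one q, ← σ1]; exact h.norm_fixed x)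
      exact ⟨a, ha, by rw [Q1, ← ha, mul_comm c, ← Algebra.smul_def, map_smul, smul_eq_mul]⟩
    obtain ⟨b, b1, b2⟩ := a x
    rcases mul_eq_zero.1 (b2.symm.trans hx) with rfl | e
    · simpa using b1.symm
    have : ∀ y, Q y = 0 := fun y => by obtain ⟨b, -, b2⟩ := a y; rw [b2, e, mul_zero]
    exact nd.1 x fun y => by simp [pb_def, this]

end Cfsg.Agent.H5
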