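import Cfsg.Agent.H5.Gen2O
import Cfsg.Agent.H6.OrthChar2
import Cfsg.Agent.H4.GenT2

/-! Two generators for the orthogonal groups. -/

set_option autoImplicit false

namespace Cfsg.Agent.H5

open Module Subgroup Polynomial H1 H6

variable {F : Type*} [Field F] [Fintype F] [DecidableEq F] {V : Type*} [AddCommGroup V] [Module F V]
  [FiniteDimensional F V] {P : QuadraticForm F V} {L : Type} [Field L] [Algebra F L] [Fintype L] [DecidableEq L]
  {Q : QuadraticForm F L} {k : ℕ} {η : L} {g n : OG Q}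

local notation "q" => Fintype.card F

omit [Fintype F] [DecidableEq F] [FiniteDimensional F V] in
theorem finrank_mvS_one : finrank F (mvS (1 : OG P)) = 0 := by rw [mvS_one, finrank_bot]

theorem Singer.sub_ne (h : Singer Q k η g n) {ζ : F} (hζ : ζ ≠ 0) : ζ • η - 1 ≠ 0 ∧ 1 - ζ⁻¹ • η ^ q ≠ 0 ∧
    1 - ζ⁻¹ • η ≠ 0 := by
  have a : ∀ {x : L} {ζ : F}, ζ ≠ 0 → ζ • x = 1 → x = algebraMap F L ζ⁻¹ := fun h e => by
    rw [Algebra.algebraMap_eq_smul_one, ← e, inv_smul_smul₀ h]
  refine ⟨fun e => h.ne _ (a hζ (sub_eq_zero.1 e)), fun e => h.ne ζ ((frobK F L).injective ?_),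
    fun e => h.ne _ (a (inv_ne_zero hζ) (sub_eq_zero.1 e).symm)⟩
  rw [frobK_apply, frobK_apply, a (inv_ne_zero hζ) (sub_eq_zero.1 e).symm, inv_inv, ← map_pow, FiniteField.pow_card]

theorem Singer.twoGen (h : Singer Q k η g n) (hP : (pb P).Nondegenerate) (h3 : 3 ≤ finrank F V + 2 * k) {a : OG P}
    (ev : Even (finrank F (mvS a))) {ζ : F} (hζ : ζ ≠ 0)
    (hθ : theta (ogProd (1 : OG (hypQ F)) (ogProd a g)) = quadraticChar F ζ) {N : ℕ} (N1 : ζ ^ N = 1) (N2 : a ^ N = 1)
    (N3 : N < q ^ k + 1) (N4 : 0 < N) (x : V) (hA : ∀ A : AddSubgroup V, (∀ v ∈ A, ζ • a.1 v ∈ A) →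
      (ζ • a.1 x - x) - ζ⁻¹ • a.1 (ζ • a.1 x - x) ∈ A → ∀ v, v ∈ A) : TwoGen (Om ((hypQ F).prod (P.prod Q))) := by
  have b1 : ∀ v, (ogProd a g).1 v = (a.1 v.1, η * v.2) := fun v => Prod.ext rfl (h.g_apply _)
  have b2 : ∀ v, (ogProd 1 n * ogProd a g * (ogProd 1 n)⁻¹).1 v = (a.1 v.1, η ^ q * v.2) := fun v =>
    Prod.ext rfl (h.n_apply _)
  refine twoGen_prod (n := ogProd 1 n) (nondeg_prod hP h.nd) (by rwa [finrank_prod, h.dim])
    (finrank_mvS_prod a g ▸ ev.add h.ev) (by simpa only [finrank_mvS_prod, finrank_mvS_one, zero_add] using h.od)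
    (OG_ext fun v => by rw [OG_mul_apply, OG_mul_apply _ (ogProd a g) v, b1, b2, b2, b1, mul_left_comm]) hζ hθ (x, 1)
    fun A A1 A2 v => ?_
  simp only [b1, b2, Prod.smul_mk, Prod.mk_sub_mk, mul_one] at A1 A2
  have A3 : ∀ i : ℕ, ∀ v ∈ A, (ζ ^ i • (a ^ i).1 v.1, ζ ^ i • (η ^ i * v.2)) ∈ A := fun i v hv => by
    induction i with
    | zero => simpa using hv
    | succ i ih => simpa [pow_succ', OG_mul_apply, smul_smul, mul_assoc] using A1 _ ih
  have A4 := h.gen ζ hζ (A.comap (AddMonoidHom.inr _ _)) (fun w hw => by simpa using A1 _ hw)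
    ((η ^ N - 1) * ((1 - ζ⁻¹ • η ^ q) * (ζ • η - 1))) (by
      rw [AddSubgroup.mem_comap]
      convert A.sub_mem (A3 N _ A2) A2 using 1
      simp only [N1, N2, one_smul, Prod.mk_sub_mk, AddMonoidHom.inr_apply, Algebra.smul_def]
      exact Prod.ext (sub_self _).symm (by simp only [map_one]; ring))
    (mul_ne_zero (sub_ne_zero.2 (h.prim.pow_ne_one_of_pos_of_lt N4.ne' N3)) (mul_ne_zero (h.sub_ne hζ).2.1 (h.sub_ne hζ).1))
  have A5 := hA (A.comap (AddMonoidHom.inl _ _)) (fun w hw => by simpa using A1 _ hw) (by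
    simpa only [AddMonoidHom.inr_apply, Prod.mk_sub_mk, sub_zero, sub_self, AddSubgroup.mem_comap,
      AddMonoidHom.inl_apply] using A.sub_mem A2 (A4 (ζ • η - 1 - ζ⁻¹ • (η ^ q * (ζ • η - 1)))))
  simpa using A.add_mem (A5 v.1) (A4 v.2)

variable [Fintype V]

theorem Singer.lev_prod (h : Singer Q k η g n) (P : QuadraticForm F V) :
    ∃ t, (lev (P.prod Q) ⊤ 0).card = (lev P ⊤ 0).card + (q ^ k + 1) * t := by
  classical
  obtain ⟨t, ht⟩ := Finset.dvd_sum fun w (_ : w ∈ Finset.univ) => h.cnt (-P w)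
  refine ⟨t, ?_⟩
  rw [← ht, show lev (P.prod Q) ⊤ 0 = Finset.univ.filter fun v => P v.1 + Q v.2 = 0 by ext; simp [mem_lev],
    show lev P ⊤ 0 = Finset.univ.filter fun v => P v = 0 by ext; simp [mem_lev], Finset.card_filter, Finset.card_filter,
    Fintype.sum_prod_type, ← Finset.sum_add_distrib]
  refine Finset.sum_congr rfl fun w _ => ?_
  rw [← Finset.add_sum_erase _ _ (Finset.mem_univ 0), ← Finset.card_filter]
  congr 1
  · simp
  · congr 1; ext; simp [add_eq_zero_iff_eq_neg']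

omit [DecidableEq F] in
theorem lev_hyp (P : QuadraticForm F V) :
    (lev ((hypQ F).prod P) ⊤ 0).card = q * (lev P ⊤ 0).card + (q - 1) * q ^ finrank F V := by
  have hh : Hyp ((hypQ F).prod P) ((1, 0), 0) ((0, 1), 0) :=
    ⟨by simp [hypQ_apply], by simp [hypQ_apply], by simp [pb_prod, pb_hypQ]⟩
  have := hh.finrank_hc (Y := ⊤) trivial trivial
  rw [hh.card_lev (Y := ⊤) trivial trivial, show finrank F (hc _ ⊤ _ _) = finrank F V by simp at this; omega]
  congr 2
  refine (Finset.card_nbij' (fun w => (0, w)) Prod.snd (fun w => ?_) (fun w => ?_) (fun _ _ => rfl) fun w => ?_).symm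
  all_goals simp +contextual [mem_lev, mem_hc, pb_prod, pb_hypQ, hypQ_apply, Prod.ext_iff]

omit [DecidableEq F] in
theorem lev_cases (hP : (pb P).Nondegenerate) {m : ℕ} (hm : finrank F V = 2 * m) :
    q * (lev P ⊤ 0).card = q ^ (2 * m) + (q - 1) * q ^ m ∨ q * (lev P ⊤ 0).card + (q - 1) * q ^ m = q ^ (2 * m) := by
  by_cases h : ∀ T ≤ ⊤, TotSing P T → finrank F T < m
  · exact Or.inr (card_lev_minus m (nd_top hP) (by simpa) h)
  push Not at h
  obtain ⟨T, a, b, c⟩ := h
  exact Or.inl (card_lev_plus m (nd_top hP) (by simpa) b a c)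

omit [Fintype F] [DecidableEq F] [FiniteDimensional F V] [Fintype V] in
theorem twoGen_pOmega {ι : Type} [Fintype ι] [DecidableEq ι] {R : QuadraticForm F (ι → F)} (h : TwoGen (Om P))
    {e : (ι → F) ≃ₗ[F] V} {c : F} (hc : c ≠ 0) (he : ∀ x, P (e x) = c * R x) : TwoGen (POmega F R) :=
  (h.of_surj (f := (commutatorEquiv ((ogEquiv R).trans (ogCongr e hc he))).symm.toMonoidHom)
    (MulEquiv.surjective _)).of_surj (QuotientGroup.mk'_surjective _)

theorem twoGen_minus (m : ℕ) (hm : 2 ≤ m) {a b : F}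
    (hab : ∀ z₁ z₂ : F, z₁ ^ 2 + a * z₁ * z₂ + b * z₂ ^ 2 = 0 → z₁ = 0 ∧ z₂ = 0) :
    TwoGen (POmega F (qMinus m F a b)) := by
  obtain ⟨L, _, _, _, _, Q, η, g, n, h⟩ := exists_singer F (k := m) (by omega)
  have hq : 1 < q := Fintype.one_lt_card
  have q1 : q * q ≤ q ^ m := sq q ▸ Nat.pow_le_pow_right hq.le hm
  have hP : (pb (0 : QuadraticForm F PUnit)).Nondegenerate := nondeg_of_left F _ fun _ _ => rfl
  have hQ := nondeg_prod hypQ_nondeg (nondeg_prod hP h.nd)
  have d1 : finrank F (PUnit.{1} × L) = 2 * m := by simp [h.dim, finrank_zero_of_subsingleton]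
  obtain ⟨ζ, ζ0, ζ1⟩ := exists_qc_theta hQ (Or.inl (by simp [h.dim]; omega)) (ogProd 1 (ogProd 1 g))
  obtain ⟨e, he⟩ := exists_qiso (qMinus_nondeg m F hab) hQ (n := m + 1) (by simp; ring)
    (by rw [finrank_prod, d1]; simp; ring) (by
    have e1 := card_lev_minus (m + 1) (nd_top (qMinus_nondeg m F hab)) (by simp; ring) fun T _ hT =>
      Nat.lt_succ_of_le (finrank_le_of_totSing_qMinus m hab hT)
    obtain ⟨t, ht⟩ := h.lev_prod (0 : QuadraticForm F PUnit)
    have e2 := lev_cases (nondeg_prod hP h.nd) d1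
    rw [card_lev_eq_one (Q := (0 : QuadraticForm F PUnit)) fun _ _ _ => rfl] at ht
    rw [lev_hyp, d1]
    simp only [two_mul, pow_add, pow_one] at *
    generalize q ^ m = s at *
    obtain ⟨r, hr⟩ : ∃ r, q = r + 1 := ⟨q - 1, by omega⟩
    simp only [hr, Nat.add_sub_cancel] at *
    rcases e2 with e2 | e2
    · rw [ht] at e2
      have := Int.le_of_dvd (a := s + 1) (b := 2 * r) (by omega) ⟨s + r - 1 - (r + 1) * t, by
        zify at e2; linear_combination e2⟩
      nlinarith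
    · refine Nat.eq_of_mul_eq_mul_left r.succ_pos ?_
      zify at e1 e2 ⊢
      linear_combination e1 - (r + 1) * e2)
  exact twoGen_pOmega (h.twoGen hP (by omega) (by simp [finrank_mvS_one]) ζ0 ζ1 (FiniteField.pow_card_sub_one_eq_one ζ ζ0)
    (one_pow _) (by nlinarith [Nat.sub_le q 1]) (by omega) 0 fun A _ _ v => A.zero_mem) one_ne_zero he

theorem twoGen_plus (m : ℕ) (hm : 2 ≤ m) : TwoGen (POmega F (qPlus (m + 2) F)) := by
  obtain ⟨L, _, _, _, _, Q, η, g, n, h⟩ := exists_singer F (k := m) (by omega)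
  obtain ⟨K, _, _, _, _, P, ξ, a, b, k⟩ := exists_singer F (k := 1) (by omega)
  have hq : 1 < q := Fintype.one_lt_card
  have q1 : q * q ≤ q ^ m := sq q ▸ Nat.pow_le_pow_right hq.le hm
  have hQ := nondeg_prod hypQ_nondeg (nondeg_prod k.nd h.nd)
  have d1 : finrank F (K × L) = 2 * (m + 1) := by simp [h.dim, k.dim]; ring
  obtain ⟨ζ, ζ0, ζ1⟩ := exists_qc_theta hQ (Or.inl (by simp [h.dim, k.dim]; omega)) (ogProd 1 (ogProd a g))
  obtain ⟨e, he⟩ := exists_qiso (qPlus_nondeg (m + 2) F) hQ (n := m + 2) (by simp; ring) (by simp [d1]; ring) (by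
    have e1 := card_lev_plus (m + 2) (nd_top (qPlus_nondeg (m + 2) F)) (by simp; ring)
      (T := LinearMap.ker (LinearMap.funLeft F F Sum.inr)) (fun x hx => by
        simp [qPlus_apply, show ∀ i, x (.inr i) = 0 from congrFun hx]) le_top (by
          have := (LinearMap.funLeft F F (Sum.inr : Fin (m + 2) → Fin (m + 2) ⊕ Fin (m + 2))).finrank_range_add_finrank_ker
          have := Submodule.finrank_le (LinearMap.range
            (LinearMap.funLeft F F (Sum.inr : Fin (m + 2) → Fin (m + 2) ⊕ Fin (m + 2))))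
          simp at *; omega)
    obtain ⟨t, ht⟩ := h.lev_prod P
    have e2 := lev_cases (nondeg_prod k.nd h.nd) d1
    rw [card_lev_eq_one fun x _ => k.aniso rfl x] at ht
    rw [lev_hyp, d1]
    simp only [two_mul, pow_add, pow_one] at *
    generalize q ^ m = s at *
    obtain ⟨r, hr⟩ : ∃ r, q = r + 1 := ⟨q - 1, by omega⟩
    simp only [hr, Nat.add_sub_cancel] at *
    rcases e2 with e2 | e2
    · refine Nat.eq_of_mul_eq_mul_left r.succ_pos ?_
      zify at e1 e2 ⊢
      linear_combination e1 - (r + 1) * e2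
    · rw [ht] at e2
      have e3 : 1 + (s + 1) * t + r * s = (r + 1) * s * s := Nat.eq_of_mul_eq_mul_left r.succ_pos (by
        zify at e2 ⊢; linear_combination e2)
      have := Int.le_of_dvd (a := s + 1) (b := 2 * r) (by omega) ⟨t - (r + 1) * s + 2 * r + 1, by
        zify at e3; linear_combination -e3⟩
      nlinarith)
  refine twoGen_pOmega (h.twoGen k.nd (by omega) k.ev ζ0 ζ1 (N := (q - 1) * (q ^ 1 + 1))
    (by rw [pow_mul, FiniteField.pow_card_sub_one_eq_one ζ ζ0, one_pow]) (OG_ext fun x => ?_)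
    (by obtain ⟨r, hr⟩ : ∃ r, q = r + 1 := ⟨q - 1, by omega⟩
        rw [hr] at q1 ⊢; rw [Nat.add_sub_cancel]; nlinarith) (Nat.mul_pos (by omega) (by omega)) 1
    fun A A1 A2 => k.gen ζ ζ0 A (by simpa only [k.g_apply] using A1) _ A2 ?_) one_ne_zero he
  · have : ∀ i : ℕ, (a ^ i).1 x = ξ ^ i * x := fun i => by
      induction i with
      | zero => simp
      | succ i ih => rw [pow_succ', OG_mul_apply, ih, k.g_apply, pow_succ', mul_assoc]
    rw [this, pow_mul', k.prim.pow_eq_one]; simp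
  · convert mul_ne_zero (k.sub_ne ζ0).2.2 (k.sub_ne ζ0).1 using 1
    simp only [k.g_apply, Algebra.smul_def]; ring

theorem twoGen_odd (h2 : (2 : F) ≠ 0) (m : ℕ) (hm : 1 ≤ m) : TwoGen (POmega F (qOdd (m + 1) F)) := by
  obtain ⟨L, _, _, _, _, Q, η, g, n, h⟩ := exists_singer F (k := m) (by omega)
  have hq : 1 < q := Fintype.one_lt_card
  have hP : (pb (QuadraticMap.sq : QuadraticForm F F)).Nondegenerate := nondeg_of_left F _ fun u hu => by
    have := hu 1
    simp only [pb_def, QuadraticMap.sq_apply] at this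
    exact mul_left_cancel₀ h2 (by linear_combination this)
  have hQ := nondeg_prod hypQ_nondeg (nondeg_prod hP h.nd)
  have d1 : finrank F ((F × F) × F × L) = 2 * m + 3 := by simp [h.dim]; ring
  obtain ⟨e, c, c0, he⟩ := exists_similitude (isEps_pb (qOdd_nondeg (m + 1) F h2)) (isEps_pb hQ) h2
    (by simp [h.dim]; ring) (by simp)
  obtain ⟨ζ, ζ0, ζ1⟩ := H4.exists_prim (F := F)
  have ζ2 : quadraticChar F ζ = -1 := quadraticChar_neg_one_iff_not_isSquare.2 fun e => by
    obtain ⟨b, hb⟩ := FiniteField.exists_nonsquare (ringChar_ne_two h2)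
    obtain ⟨i, rfl⟩ := ζ1 b fun e => hb (by simp [e])
    exact hb (e.pow i)
  have ζ3 : ζ ≠ 1 := fun e => by simp [e] at ζ2
  refine twoGen_pOmega (h.twoGen hP (by simp; omega) (a := 1) (by simp [finrank_mvS_one]) ζ0 ?_
    (FiniteField.pow_card_sub_one_eq_one ζ ζ0) (one_pow _) (by have := Nat.le_self_pow (show m ≠ 0 by omega) q; omega)
    (by omega) 1 fun A A1 A2 v => ?_) c0 fun x => mul_left_cancel₀ h2 (by
      rw [← pb_self, he, pb_self]; ring)
  · have hN : BigEnough F ((F × F) × F × L) := Or.inl (by omega)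
    refine ζ2 ▸ (theta_dichotomy hQ hN _).resolve_left fun e => ?_
    have b1 := ((mem_comm_iff (isEps_pb hQ) h2 (by omega) _).1 ((mem_commutator_equiv (MulEquiv.subgroupCongr
      (og_eq _ h2)) _).2 ((mem_commutator_OG hQ hN _).2 ⟨by simpa [finrank_mvS_prod, finrank_mvS_one] using h.ev, e⟩))).2
    have b2 : ∀ v : (F × F) × F × L, (MulEquiv.subgroupCongr (og_eq _ h2) (ogProd (1 : OG (hypQ F))
        (ogProd (1 : OG (QuadraticMap.sq : QuadraticForm F F)) g))).1 v = (v.1, v.2.1, η * v.2.2) := fun v =>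
      Prod.ext rfl (Prod.ext rfl (h.g_apply _))
    generalize MulEquiv.subgroupCongr (og_eq ((hypQ F).prod (QuadraticMap.sq.prod Q)) h2) _ = G at b1 b2
    rw [th_of_inj_neg (isEps_pb hQ) h2 (by omega) _ fun v hv => by
      have b3 := (b2 v).symm.trans hv
      have b4 : η + 1 ≠ 0 := fun e => h.ne (-1) (by simpa using eq_neg_of_add_eq_zero_left e)
      simp only [Prod.ext_iff, Prod.fst_neg, Prod.snd_neg] at b3
      simp only [eq_neg_iff_add_eq_zero, ← two_mul, mul_eq_zero, h2, false_or, ← add_one_mul, b4] at b3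
      exact Prod.ext (Prod.ext b3.1.1 b3.1.2) (Prod.ext b3.2.1 b3.2.2),
      show (2 : F) • ((G.1 : End F _) + 1) = ((4 : F) • (1 : End F (F × F))).prodMap (((4 : F) • (1 : End F F)).prodMap
        (Algebra.lmul F L (2 * (η + 1)))) from LinearMap.ext fun v => (congrArg (fun w => (2 : F) • (w + v)) (b2 v)).trans
          (Prod.ext (by simp; module) (Prod.ext (by simp; ring) (by simp [two_smul]; ring))),
      LinearMap.det_prodMap, LinearMap.det_prodMap, ← Algebra.norm_apply, ← mul_assoc, map_mul, h.spin h2,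
      show _ * _ = (2 ^ 3 : F) ^ 2 by simp; norm_num, quadraticChar_sq_one' (pow_ne_zero _ h2)] at b1
    omega
  · by_cases v0 : v = 0
    · exact v0 ▸ A.zero_mem
    have y0 : (ζ - 1) - ζ⁻¹ * (ζ - 1) ≠ 0 := by
      rw [← one_sub_mul]; exact mul_ne_zero (by simpa [sub_eq_zero] using ζ3) (sub_ne_zero.2 ζ3)
    obtain ⟨i, hi⟩ := ζ1 _ (div_ne_zero v0 y0)
    rw [← div_mul_cancel₀ v y0, ← hi]
    clear hi
    induction i with
    | zero => simpa using A2
    | succ i ih => simpa [pow_succ', mul_assoc] using A1 _ ih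

end Cfsg.Agent.H5
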