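import Cfsg.Agent.H1.OmCount
import Cfsg.Agent.H2.M2
import Cfsg.Agent.H6.OrthRank

/-! Classification of nondegenerate quadratic forms of even dimension over finite fields. -/

set_option autoImplicit false

namespace Cfsg.Agent.H5

open Module H1 H6

variable {F : Type*} [Field F] [Fintype F]

theorem bin_iso {α γ β γ' β' : F} (h : ∀ x y, α * x ^ 2 + γ * x * y + β * y ^ 2 = 0 → x = 0 ∧ y = 0)
    (h' : ∀ x y, α * x ^ 2 + γ' * x * y + β' * y ^ 2 = 0 → x = 0 ∧ y = 0) :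
    ∃ s t, 2 * α * s + γ' * t = γ ∧ α * s ^ 2 + γ' * s * t + β' * t ^ 2 = β := by
  classical
  have a0 : α ≠ 0 := fun e => one_ne_zero (h 1 0 (by simp [e])).1
  by_cases h2 : (2 : F) = 0
  · have k : ∀ {γ β : F}, (∀ x y, α * x ^ 2 + γ * x * y + β * y ^ 2 = 0 → x = 0 ∧ y = 0) → γ ≠ 0 := fun {γ β} h e =>
      disc_ne_zero_of_aniso F (a := γ / α) (b := β / α) (fun x y e => h x y (by field_simp at e; linear_combination e))
        (by rw [e]; linear_combination -(2 * β / α) * h2)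
    let f : F →+ F := AddMonoidHom.mk' (fun s => α * s ^ 2 + γ * s) fun x y => by linear_combination α * x * y * h2
    have f1 : f.range.index = 2 := by
      rw [AddSubgroup.index_range, Nat.card_eq_two_iff' 0]
      refine ⟨⟨γ / α, show α * _ ^ 2 + γ * _ = 0 by field_simp; linear_combination γ ^ 2 * h2⟩,
        fun e => div_ne_zero (k h) a0 (congrArg Subtype.val e), fun ⟨y, hy⟩ e => Subtype.ext ?_⟩
      refine mul_left_cancel₀ (mul_ne_zero a0 fun e' => e (Subtype.ext e')) ?_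
      change α * _ ^ 2 + γ * _ = 0 at hy
      field_simp
      linear_combination hy - γ * y * h2
    have g0 := k h'
    obtain ⟨s, hs⟩ := (AddSubgroup.add_mem_iff_of_index_two f1 (a := β) (b := β' * (γ / γ') ^ 2)).2 (iff_of_false
      (fun ⟨s, hs⟩ => one_ne_zero (h s 1 (by
        change α * _ ^ 2 + γ * _ = _ at hs; linear_combination hs + β * h2)).2)
      fun ⟨s, hs⟩ => div_ne_zero (k h) g0 (h' s (γ / γ') (by
        change α * _ ^ 2 + γ * _ = _ at hs
        rw [mul_right_comm, mul_div_cancel₀ _ g0]; linear_combination hs + β' * (γ / γ') ^ 2 * h2)).2)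
    change α * _ ^ 2 + γ * _ = _ at hs
    exact ⟨s, γ / γ', by rw [mul_div_cancel₀ _ g0]; linear_combination α * s * h2, by
      rw [mul_right_comm, mul_div_cancel₀ _ g0]; linear_combination hs + β' * (γ / γ') ^ 2 * h2⟩
  · have k : ∀ {γ β : F}, (∀ x y, α * x ^ 2 + γ * x * y + β * y ^ 2 = 0 → x = 0 ∧ y = 0) →
        quadraticChar F (γ ^ 2 - 4 * α * β) = -1 := fun {γ β} h => quadraticChar_neg_one_iff_not_isSquare.2
      fun ⟨r, e⟩ => mul_ne_zero h2 a0 (h (r - γ) (2 * α) (by linear_combination -α * e)).2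
    have d0 : γ' ^ 2 - 4 * α * β' ≠ 0 := fun e => by simpa [e] using k h'
    have d1 : γ ^ 2 - 4 * α * β ≠ 0 := fun e => by simpa [e] using k h
    obtain ⟨r, hr⟩ := (quadraticChar_one_iff_isSquare (mul_ne_zero d1 d0)).1 (by rw [map_mul, k h, k h']; rfl)
    refine ⟨(γ - γ' * (r / (γ' ^ 2 - 4 * α * β'))) / (2 * α), r / (γ' ^ 2 - 4 * α * β'), by field_simp; ring, ?_⟩
    have : (γ' ^ 2 - 4 * α * β') * (r / (γ' ^ 2 - 4 * α * β')) ^ 2 = γ ^ 2 - 4 * α * β := by
      field_simp; linear_combination -hr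
    generalize r / (γ' ^ 2 - 4 * α * β') = t at this
    field_simp
    linear_combination -this

variable {E E' : Type*} [AddCommGroup E] [Module F E] [AddCommGroup E'] [Module F E'] {Q : QuadraticForm F E}
  {Q' : QuadraticForm F E'}

omit [Fintype F] in
theorem Q_two (u v : E) (x y : F) : Q (x • u + y • v) = Q u * x ^ 2 + pb Q u v * x * y + Q v * y ^ 2 := by
  simp [Q_add, Q_smul]; ring

variable [FiniteDimensional F E] [FiniteDimensional F E']

omit [Fintype F] in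
theorem exists_aniso_pair {Y : Submodule F E} (hd : finrank F Y = 2) (h : ∀ y ∈ Y, Q y = 0 → y = 0) {a : E}
    (ha : a ∈ Y) (h0 : a ≠ 0) : ∃ b ∈ Y, (∀ x y, Q a * x ^ 2 + pb Q a b * x * y + Q b * y ^ 2 = 0 → x = 0 ∧ y = 0) ∧
      LinearIndependent F ![a, b] := by
  obtain ⟨b, hb, h1⟩ := exists_not_mem_of_finrank_lt (S := F ∙ a) (T := Y) (by rw [finrank_span_singleton h0]; omega)
  have h2 : LinearIndependent F ![a, b] := (LinearIndependent.pair_iff' h0).2 fun c e =>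
    h1 (Submodule.mem_span_singleton.2 ⟨c, e⟩)
  exact ⟨b, hb, fun x y e => LinearIndependent.pair_iff.1 h2 x y (h _ (Y.add_mem (Y.smul_mem _ ha) (Y.smul_mem _ hb))
    ((Q_two ..).trans e)), h2⟩

theorem exists_iso_aniso {Y : Submodule F E} {Y' : Submodule F E'} (hd : finrank F Y = 2) (hd' : finrank F Y' = 2)
    (h : ∀ y ∈ Y, Q y = 0 → y = 0) (h' : ∀ y ∈ Y', Q' y = 0 → y = 0) :
    ∃ φ : E →ₗ[F] E', ∀ y ∈ Y, φ y ∈ Y' ∧ Q' (φ y) = Q y := by
  obtain ⟨a, ha, a0⟩ := Y.exists_mem_ne_zero_of_ne_bot (by rintro rfl; simp at hd)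
  obtain ⟨c, hc, c0⟩ := Y'.exists_mem_ne_zero_of_ne_bot (by rintro rfl; simp at hd')
  obtain ⟨b, hb, b1, b2⟩ := exists_aniso_pair hd h ha a0
  obtain ⟨d, hd1, d1, -⟩ := exists_aniso_pair hd' h' hc c0
  have c1 : Q' c ≠ 0 := fun e => c0 (h' c hc e)
  obtain ⟨x, y, e⟩ := H2.exists_form_eq (F := F) (t := pb Q' c d / Q' c) (d := Q' d / Q' c) (Or.inr (sub_ne_zero.1
    (disc_ne_zero_of_aniso F fun x y e => d1 x y (by field_simp at e; linear_combination e)))) (Q a / Q' c)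
  have e1 : Q' (x • c + y • d) = Q a := by rw [Q_two]; field_simp at e; linear_combination e
  have e2 := Y'.add_mem (Y'.smul_mem x hc) (Y'.smul_mem y hd1)
  generalize x • c + y • d = a' at e1 e2
  obtain ⟨c', hc', d2, -⟩ := exists_aniso_pair hd' h' e2 fun e => a0 (h a ha (by rw [← e1, e, map_zero]))
  rw [e1] at d2
  obtain ⟨s, t, s1, s2⟩ := bin_iso b1 d2
  obtain ⟨φ, hφ⟩ := ((Basis.span b2).constr F ![a', s • a' + t • c']).exists_extend
  have p : ∀ i, φ (![a, b] i) = ![a', s • a' + t • c'] i := fun i => by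
    have := LinearMap.congr_fun hφ (Basis.span b2 i)
    rwa [Basis.constr_basis, LinearMap.comp_apply, Submodule.subtype_apply, Basis.coe_span_apply] at this
  refine ⟨φ, fun z hz => ?_⟩
  rw [← Submodule.eq_of_le_of_finrank_eq (S₁ := Submodule.span F {a, b}) (S₂ := Y) (Submodule.span_le.2 (by
    simp [Set.insert_subset_iff, ha, hb])) (by
      rw [hd, ← Matrix.range_cons_cons_empty, finrank_span_eq_card b2]; simp), Submodule.mem_span_pair] at hz
  obtain ⟨x, y, rfl⟩ := hz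
  rw [map_add, map_smul, map_smul, show φ a = a' from p 0, show φ b = s • a' + t • c' from p 1]
  refine ⟨Y'.add_mem (Y'.smul_mem _ e2) (Y'.smul_mem _ (Y'.add_mem (Y'.smul_mem _ e2) (Y'.smul_mem _ hc'))), ?_⟩
  rw [Q_two, Q_two, Q_two]
  simp only [map_add, map_smul, smul_eq_mul, pb_self, e1, ← s1, ← s2]
  ring

variable [Fintype E] [Fintype E']

theorem exists_qiso_aux (n : ℕ) {Y : Submodule F E} {Y' : Submodule F E'} (h : ND Q Y) (h' : ND Q' Y')
    (hd : finrank F Y = 2 * n) (hd' : finrank F Y' = 2 * n) (hc : (lev Q Y 0).card = (lev Q' Y' 0).card) :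
    ∃ φ : E →ₗ[F] E', ∀ y ∈ Y, φ y ∈ Y' ∧ Q' (φ y) = Q y := by
  induction n generalizing Y Y' with
  | zero => exact ⟨0, fun y hy => by
      rw [Submodule.finrank_eq_zero.1 hd, Submodule.mem_bot] at hy; simp [hy]⟩
  | succ n ih =>
    by_cases h1 : (lev Q Y 0).card = 1
    · have a1 : ∀ y ∈ Y, Q y = 0 → y = 0 := fun y h2 h3 =>
        Finset.card_le_one.1 h1.le _ (mem_lev.2 ⟨h2, h3⟩) _ (mem_lev.2 ⟨zero_mem _, map_zero _⟩)
      have a2 : ∀ y ∈ Y', Q' y = 0 → y = 0 := fun y h2 h3 =>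
        Finset.card_le_one.1 (hc ▸ h1).le _ (mem_lev.2 ⟨h2, h3⟩) _ (mem_lev.2 ⟨zero_mem _, map_zero _⟩)
      obtain rfl : n = 0 := by
        by_contra hn
        obtain ⟨e, he, f, hf, hh⟩ := h.exists_hyp' (by omega)
        exact hh.ne (a1 e he hh.l)
      exact exists_iso_aniso hd hd' a1 a2
    obtain ⟨e, he, e1, e0⟩ : ∃ e ∈ Y, Q e = 0 ∧ e ≠ 0 := by
      by_contra! a; exact h1 (card_lev_eq_one a)
    obtain ⟨e', he', e1', e0'⟩ : ∃ e ∈ Y', Q' e = 0 ∧ e ≠ 0 := by
      by_contra! a; exact h1 (hc ▸ card_lev_eq_one a)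
    obtain ⟨f, hf, hh⟩ := h.exists_hyp he e0 e1
    obtain ⟨f', hf', hh'⟩ := h'.exists_hyp he' e0' e1'
    have b1 := hh.finrank_hc he hf
    have b2 := hh'.finrank_hc he' hf'
    rw [hh.card_lev he hf, hh'.card_lev he' hf', show finrank F (H1.hc Q Y e f) = 2 * n by omega,
      show finrank F (H1.hc Q' Y' e' f') = 2 * n by omega, add_left_inj, mul_right_inj' Fintype.card_ne_zero] at hc
    obtain ⟨ψ, hψ⟩ := ih (h.hc hh he hf) (h'.hc hh' he' hf') (by omega) (by omega) hc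
    refine ⟨(pb Q f).smulRight e' + (pb Q e).smulRight f' +
      ψ ∘ₗ (LinearMap.id - (pb Q f).smulRight e - (pb Q e).smulRight f), fun y hy => ?_⟩
    obtain ⟨c1, c2⟩ := hψ _ (hh.proj_mem he hf hy)
    refine ⟨Y'.add_mem (Y'.add_mem (Y'.smul_mem _ he') (Y'.smul_mem _ hf')) (mem_hc.1 c1).1,
      (hh'.Q_comb c1 _ _).trans ?_⟩
    rw [c2, ← hh.Q_comb (hh.proj_mem he hf hy)]
    congr 1; abel

theorem exists_qiso (h : (pb Q).Nondegenerate) (h' : (pb Q').Nondegenerate) {n : ℕ} (hd : finrank F E = 2 * n)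
    (hd' : finrank F E' = 2 * n) (hc : (lev Q ⊤ 0).card = (lev Q' ⊤ 0).card) :
    ∃ e : E ≃ₗ[F] E', ∀ x, Q' (e x) = 1 * Q x := by
  obtain ⟨φ, hφ⟩ := exists_qiso_aux n (nd_top h) (nd_top h') (by simpa) (by simpa) hc
  have a : ∀ x, Q' (φ x) = Q x := fun x => (hφ x trivial).2
  exact ⟨φ.linearEquivOfInjective ((injective_iff_map_eq_zero _).2 fun x hx => h.1 x fun y => by
    rw [pb_def, ← a, ← a, ← a, map_add, hx]; simp) (hd.trans hd'.symm), fun x => by simpa using a x⟩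

omit [Fintype F] [FiniteDimensional F E] [FiniteDimensional F E'] [Fintype E] [Fintype E']

/-- Similar forms have isomorphic orthogonal groups. -/
def ogCongr (e : E ≃ₗ[F] E') {c : F} (hc : c ≠ 0) (h : ∀ x, Q' (e x) = c * Q x) : OG Q ≃* OG Q' where
  toFun g := ⟨e.symm.trans (g.1.trans e), fun v => by
    obtain ⟨v, rfl⟩ := e.surjective v
    simp [h, OG_Q]⟩
  invFun g := ⟨e.trans (g.1.trans e.symm), fun v => mul_left_cancel₀ hc (by simp [← h, OG_Q])⟩
  left_inv g := OG_ext fun v => by simp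
  right_inv g := OG_ext fun v => by simp
  map_mul' g g' := OG_ext fun v => by simp [OG_mul_apply]

end Cfsg.Agent.H5
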