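import Cfsg.Agent.H5.U3H

/-! A subgroup of index 50 in `SU(3, 5)`. -/

set_option autoImplicit false
set_option linter.unusedSectionVars false

namespace Cfsg.Agent.H5.A7

open Module H1 MulAction Projectivization Matrix
open scoped LinearAlgebra.Projectivization Pointwise

/-- A model of the field with 25 elements. -/
abbrev K := ℕ × ℕ
/-- Vectors. -/
abbrev V := K × K × K
/-- Addition. -/
def ad (x y : K) : K := ((x.1 + y.1) % 5, (x.2 + y.2) % 5)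
/-- Multiplication. -/
def ml (x y : K) : K := ((x.1 * y.1 + 2 * (x.2 * y.2)) % 5, (x.1 * y.2 + x.2 * y.1) % 5)
/-- Conjugation. -/
def cj (x : K) : K := (x.1, 4 * x.2 % 5)
/-- Norm. -/
def nm (x : K) : ℕ := (x.1 * x.1 + 3 * (x.2 * x.2)) % 5
/-- Dot product. -/
def dt (u v : V) : K := ad (ad (ml u.1 v.1) (ml u.2.1 v.2.1)) (ml u.2.2 v.2.2)
/-- Hermitian product. -/
def hm (u v : V) : K := dt u (cj v.1, cj v.2.1, cj v.2.2)
/-- Matrix times vector. -/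
def ap (M : V × V × V) (v : V) : V := (dt M.1 v, dt M.2.1 v, dt M.2.2 v)
/-- Scalar times vector. -/
def sm (c : K) (v : V) : V := (ml c v.1, ml c v.2.1, ml c v.2.2)
/-- Cross product. -/
def cr (u v : V) : V := (ad (ml u.2.1 v.2.2) (ml (4, 0) (ml u.2.2 v.2.1)),
  ad (ml u.2.2 v.1) (ml (4, 0) (ml u.1 v.2.2)), ad (ml u.1 v.2.1) (ml (4, 0) (ml u.2.1 v.1)))
/-- Test for special unitary matrices. -/
def IsSU (M : V × V × V) : Prop := hm M.1 M.1 = (1, 0) ∧ hm M.1 M.2.1 = (0, 0) ∧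
  hm M.1 M.2.2 = (0, 0) ∧ hm M.2.1 M.1 = (0, 0) ∧ hm M.2.1 M.2.1 = (1, 0) ∧
  hm M.2.1 M.2.2 = (0, 0) ∧ hm M.2.2 M.1 = (0, 0) ∧ hm M.2.2 M.2.1 = (0, 0) ∧
  hm M.2.2 M.2.2 = (1, 0) ∧ dt M.1 (cr M.2.1 M.2.2) = (1, 0)

/-- Representatives of the isotropic points. -/
def vs : List V :=
  [((0,1),(1,2),(1,1)), ((3,4),(0,2),(3,3)), ((1,3),(1,2),(1,1)), ((1,1),(4,3),(4,3)),
  ((2,2),(0,3),(0,2)), ((1,1),(0,1),(0,4)), ((4,3),(2,0),(1,2)), ((3,0),(0,3),(3,0)),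
  ((3,1),(3,1),(2,3)), ((1,4),(1,2),(1,2)), ((4,4),(0,0),(1,0)), ((0,1),(1,4),(1,2)),
  ((2,2),(3,2),(4,3)), ((1,2),(1,4),(0,1)), ((3,3),(2,4),(0,2)), ((3,3),(0,1),(2,2)),
  ((4,2),(4,1),(4,3)), ((4,2),(1,0),(1,0)), ((1,0),(1,2),(4,0)), ((1,0),(1,0),(4,2)),
  ((1,4),(2,2),(0,0)), ((4,2),(4,3),(1,1)), ((3,1),(2,4),(3,3)), ((1,1),(4,3),(1,2)),
  ((3,1),(4,0),(2,1)), ((0,0),(4,4),(2,3)), ((4,1),(1,2),(0,4)), ((4,0),(3,4),(3,1)),
  ((2,0),(3,1),(2,0)), ((2,0),(0,2),(1,4)), ((1,4),(4,4),(0,3)), ((3,4),(1,3),(0,0)),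
  ((2,0),(4,1),(2,4)), ((1,4),(0,4),(1,2)), ((3,4),(2,4),(1,0)), ((0,1),(4,4),(0,1)),
  ((3,3),(1,0),(4,2)), ((2,4),(2,1),(1,0)), ((0,3),(2,2),(3,1)), ((1,2),(4,1),(4,2)),
  ((2,0),(4,1),(0,3)), ((0,4),(1,1),(0,1)), ((3,2),(1,0),(4,2)), ((3,4),(2,0),(4,1)),
  ((1,0),(0,0),(4,4)), ((1,2),(4,4),(1,3)), ((0,2),(0,2),(2,2)), ((1,2),(4,4),(0,1)),
  ((2,3),(1,0),(0,1)), ((0,0),(2,0),(4,0)), ((0,4),(4,1),(4,2)), ((2,4),(3,1),(3,2)),
  ((4,0),(2,2),(4,3)), ((3,1),(2,3),(0,2)), ((0,3),(3,0),(2,0)), ((2,0),(2,1),(2,0)),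
  ((3,3),(4,2),(4,0)), ((2,2),(4,2),(3,3)), ((1,1),(2,4),(4,1)), ((2,1),(3,4),(3,2)),
  ((4,2),(3,2),(1,0)), ((3,4),(2,2),(0,3)), ((1,0),(1,2),(1,0)), ((1,2),(4,2),(2,0)),
  ((4,4),(3,1),(3,0)), ((2,4),(0,2),(3,2)), ((0,0),(4,2),(2,4)), ((2,1),(1,1),(3,0)),
  ((1,4),(4,2),(4,2)), ((1,3),(0,1),(3,0)), ((2,1),(4,1),(4,1)), ((3,2),(1,2),(2,3)),
  ((0,1),(1,2),(1,4)), ((3,4),(3,0),(1,1)), ((1,2),(2,3),(1,0)), ((3,4),(2,0),(1,1)),
  ((3,4),(3,2),(2,4)), ((3,1),(3,1),(2,2)), ((2,3),(2,3),(1,3)), ((3,1),(1,3),(0,0)),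
  ((1,0),(0,3),(0,3)), ((1,1),(1,4),(2,4)), ((1,0),(0,2),(0,3)), ((3,0),(1,2),(0,4)),
  ((0,2),(2,3),(3,4)), ((3,2),(3,1),(0,2)), ((4,4),(0,1),(4,2)), ((1,4),(0,1),(4,3)),
  ((2,2),(0,1),(1,0)), ((1,0),(3,3),(4,2)), ((0,0),(0,3),(0,4)), ((0,4),(0,0),(3,4)),
  ((4,4),(0,2),(1,4)), ((1,2),(1,4),(1,2)), ((0,2),(1,1),(4,4)), ((3,3),(3,2),(0,4)),
  ((4,2),(3,3),(4,0)), ((4,3),(4,3),(4,1)), ((3,1),(2,0),(4,1)), ((1,2),(2,2),(4,0)),
  ((3,3),(2,4),(3,4)), ((2,3),(1,0),(4,3)), ((1,3),(4,4),(1,2)), ((3,1),(3,3),(3,4)),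
  ((2,2),(0,2),(2,4)), ((2,3),(2,4),(0,2)), ((4,4),(3,4),(4,1)), ((4,2),(4,1),(0,4)),
  ((4,0),(1,0),(4,3)), ((2,3),(0,4),(1,0)), ((4,1),(1,4),(3,1)), ((0,2),(3,1),(2,3)),
  ((0,0),(1,1),(4,0)), ((0,0),(4,4),(4,0)), ((2,0),(0,0),(1,0)), ((1,2),(0,0),(3,4)),
  ((4,1),(2,3),(0,0)), ((1,3),(3,3),(1,0)), ((3,0),(3,3),(0,0)), ((3,4),(3,0),(4,1)),
  ((4,1),(0,0),(3,2)), ((0,1),(0,4),(4,4)), ((0,1),(4,0),(2,3)), ((3,3),(3,1),(0,3)),
  ((2,1),(0,2),(2,2)), ((3,2),(3,0),(0,0))]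

/-- A generator. -/
def Mu : V × V × V := (((2,1),(3,1),(3,4)), ((1,2),(2,1),(1,0)), ((4,0),(2,1),(4,3)))

/-- The action of a generator. -/
def Lu : List (ℕ × K) :=
  [(0,1,0), (2,1,0), (5,1,0), (8,1,0), (11,1,0), (14,1,0), (17,1,0), (20,1,0), (6,1,0), (23,1,0),
  (26,1,0), (29,1,0), (32,1,0), (35,1,0), (37,1,0), (3,1,0), (36,1,4), (15,1,0), (9,1,0),
  (43,1,0), (46,1,0), (31,2,0), (49,1,0), (10,4,0), (52,1,0), (54,1,0), (18,4,0), (24,4,0),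
  (58,1,0), (61,1,0), (64,1,0), (47,3,0), (30,1,0), (67,1,0), (42,2,0), (51,1,1), (71,1,0),
  (1,1,0), (73,1,0), (76,1,0), (78,1,0), (80,1,0), (27,4,0), (84,1,0), (87,1,0), (60,2,0),
  (72,4,0), (92,1,0), (93,1,0), (95,1,0), (77,3,3), (45,4,1), (34,3,0), (99,1,0), (65,3,0),
  (57,1,4), (66,2,2), (68,4,1), (74,3,0), (40,4,1), (13,3,0), (100,1,0), (12,1,0), (101,3,2),
  (62,1,0), (33,1,0), (55,2,0), (25,2,0), (56,1,1), (98,4,1), (90,4,0), (70,1,0), (108,1,0),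
  (110,1,0), (105,2,2), (28,3,0), (112,1,0), (83,2,0), (79,4,1), (82,2,0), (69,1,1), (63,3,0),
  (59,4,1), (53,3,3), (96,4,4), (107,4,4), (103,2,0), (85,1,0), (19,3,3), (113,1,1), (16,1,1),
  (21,1,0), (91,1,0), (115,3,2), (117,4,4), (114,1,0), (88,4,4), (106,3,0), (120,1,0), (50,1,1),
  (4,1,0), (86,1,0), (109,1,0), (81,3,3), (119,2,3), (75,3,2), (124,2,2), (118,1,4), (7,4,0),
  (48,3,0), (94,2,2), (122,2,0), (125,1,1), (104,1,0), (121,1,1), (102,1,1), (89,2,2), (38,1,1),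
  (44,1,0), (116,4,1), (41,1,0), (22,4,1), (97,1,0), (39,2,0), (111,2,3), (123,2,3)]

/-- A generator. -/
def Md : V × V × V := (((2,0),(2,0),(1,2)), ((0,1),(0,4),(0,0)), ((4,4),(4,4),(0,4)))

/-- The action of a generator. -/
def Ld : List (ℕ × K) :=
  [(0,4,1), (3,1,0), (6,1,0), (9,1,0), (12,1,0), (15,1,0), (18,1,0), (21,1,0), (10,4,0), (24,1,0),
  (27,1,0), (30,1,0), (33,1,0), (36,1,0), (8,1,0), (26,4,0), (20,4,1), (23,1,0), (42,1,0),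
  (44,1,0), (47,1,0), (45,3,2), (50,1,0), (34,3,0), (1,2,3), (55,1,0), (52,4,0), (14,3,2),
  (59,1,0), (62,1,0), (65,1,0), (13,4,1), (25,2,0), (57,2,3), (37,4,1), (70,1,0), (72,1,0),
  (17,1,0), (74,1,0), (39,1,4), (48,3,3), (81,1,0), (2,2,3), (85,1,0), (88,1,0), (71,1,0),
  (91,1,0), (51,2,0), (94,1,0), (83,1,1), (49,3,3), (16,4,0), (5,2,3), (95,4,1), (68,2,2),
  (61,1,4), (100,1,0), (4,1,0), (78,4,1), (102,1,0), (90,2,0), (32,1,0), (54,2,0), (104,1,0),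
  (67,1,0), (66,1,0), (11,2,3), (56,2,3), (29,1,1), (103,1,1), (46,4,0), (7,4,0), (31,3,0),
  (75,4,0), (82,2,2), (79,4,4), (112,1,4), (114,1,0), (115,1,0), (109,3,2), (101,4,1), (89,2,3),
  (93,2,3), (22,3,0), (118,1,0), (96,1,4), (113,3,3), (43,3,3), (107,1,4), (111,3,0), (108,4,0),
  (35,3,2), (60,1,4), (38,2,3), (105,1,0), (99,4,1), (87,1,4), (120,1,0), (63,3,0), (121,1,0),
  (64,1,0), (116,1,4), (117,2,2), (119,2,0), (124,1,0), (40,3,3), (80,2,0), (19,2,0), (92,4,0),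
  (73,1,4), (58,2,0), (41,2,0), (123,3,2), (97,4,1), (77,3,3), (110,4,0), (106,1,1), (28,2,2),
  (84,3,3), (122,2,0), (86,4,1), (53,3,3), (69,1,1), (125,3,0), (98,4,1), (76,2,2)]

/-- A generator. -/
def Mb : V × V × V := (((2,2),(1,3),(3,4)), ((2,2),(1,4),(4,0)), ((4,4),(4,4),(4,3)))

/-- The action of a generator. -/
def Lb : List (ℕ × K) :=
  [(1,1,0), (4,1,0), (7,1,0), (10,1,0), (13,1,0), (16,1,0), (19,1,0), (22,1,0), (18,4,0),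
  (25,1,0), (28,1,0), (31,1,0), (34,1,0), (11,1,4), (38,1,0), (39,1,0), (40,1,0), (41,1,0),
  (3,4,4), (45,1,0), (48,1,0), (30,3,2), (14,3,0), (51,1,0), (53,1,0), (56,1,0), (57,1,0),
  (0,1,1), (60,1,0), (63,1,0), (66,1,0), (27,4,0), (29,1,1), (68,1,0), (69,1,0), (8,4,4),
  (15,4,0), (24,1,4), (75,1,0), (77,1,0), (79,1,0), (82,1,0), (83,1,0), (86,1,0), (89,1,0),
  (90,1,0), (62,2,0), (78,2,2), (17,2,3), (96,1,0), (97,1,0), (81,1,4), (98,1,0), (21,4,0),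
  (67,3,0), (6,1,4), (70,4,4), (65,4,1), (101,1,0), (91,3,0), (35,2,2), (46,3,0), (103,1,0),
  (104,2,2), (105,1,0), (42,3,2), (106,1,0), (107,1,0), (94,3,3), (32,2,3), (58,3,0), (64,3,0),
  (109,1,0), (108,4,0), (72,4,4), (111,1,0), (113,1,0), (47,1,0), (92,4,4), (44,4,4), (33,3,2),
  (116,1,0), (87,1,4), (117,1,0), (102,4,0), (23,3,3), (119,1,0), (99,2,2), (93,3,2), (114,3,3),
  (49,2,2), (85,3,2), (36,4,4), (73,4,4), (52,1,4), (112,2,0), (55,2,0), (88,2,2), (118,4,1),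
  (20,4,4), (122,1,0), (123,1,0), (110,4,0), (43,2,2), (12,4,1), (115,3,0), (37,4,1), (125,1,0),
  (121,1,0), (100,1,0), (54,4,4), (2,2,0), (120,4,4), (74,4,4), (5,4,4), (95,3,2), (59,3,3),
  (124,4,0), (80,2,3), (61,2,3), (71,4,0), (50,1,4), (76,3,3), (9,2,3), (26,1,4), (84,2,3)]

/-- The `i`-th vector. -/
def vv (i : ℕ) : V := vs.getD i ((0, 0), (0, 0), (0, 0))

/-- Test for the action of a generator. -/
def Cl (M : V × V × V) (L : List (ℕ × K)) : Prop := ∀ i < 126, (L.getD i (0, 0, 0)).1 < 126 ∧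
  ap M (vv i) = sm (L.getD i (0, 0, 0)).2 (vv (L.getD i (0, 0, 0)).1) ∧
  nm (L.getD i (0, 0, 0)).2 * nm (L.getD i (0, 0, 0)).2 % 5 = 1

theorem su_all : IsSU Mu ∧ IsSU Md ∧ IsSU Mb := by unfold IsSU; decide +kernel
theorem cl_all : Cl Mu Lu ∧ Cl Md Ld ∧ Cl Mb Lb := by
  refine ⟨?_, ?_, ?_⟩ <;> unfold Cl <;> decide +kernel
theorem hm_all : ∀ i < 126, ∀ j < 126, nm (hm (vv i) (vv j)) = 0 → i = j := by decide +kernel
theorem vv_all : ∀ i < 126, hm (vv i) (vv i) = (0, 0) ∧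
    (nm (vv i).1 ≠ 0 ∨ nm (vv i).2.1 ≠ 0) := by decide +kernel
theorem tree : ∀ i < 126, i = 0 ∨ ∃ j < i, (Lu.getD j (0, 0, 0)).1 = i ∨
    (Ld.getD j (0, 0, 0)).1 = i ∨ (Lb.getD j (0, 0, 0)).1 = i := by decide +kernel

variable {F : Type*} [Field F] [CharP F 5] {σ : F →+* F} {θ : F}

/-- The embedding of the model. -/
def φ (θ : F) (x : K) : F := x.1 + x.2 * θ
/-- The embedding of vectors. -/
def φV (θ : F) (v : V) : Fin 3 → F := ![φ θ v.1, φ θ v.2.1, φ θ v.2.2]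

theorem cast_mod (n : ℕ) : ((n % 5 : ℕ) : F) = n := (CharP.cast_eq_mod F 5 n).symm

theorem five : (5 : F) = 0 := by exact_mod_cast CharP.cast_eq_zero F 5

theorem φ_ad (x y : K) : φ θ (ad x y) = φ θ x + φ θ y := by
  simp only [φ, ad, cast_mod]; push_cast; ring

theorem φ_ml (hθ : θ * θ = 2) (x y : K) : φ θ (ml x y) = φ θ x * φ θ y := by
  simp only [φ, ml, cast_mod]; push_cast; linear_combination -(x.2 * y.2 : F) * hθ

theorem φ_cj (hσ : σ θ = -θ) (x : K) : φ θ (cj x) = σ (φ θ x) := by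
  simp only [φ, cj, cast_mod, map_add, map_mul, map_natCast, hσ]; push_cast
  linear_combination (x.2 * θ : F) * five (F := F)

theorem φ_nm (hθ : θ * θ = 2) (hσ : σ θ = -θ) (x : K) : φ θ x * σ (φ θ x) = nm x := by
  simp only [φ, nm, cast_mod, map_add, map_mul, map_natCast, hσ]; push_cast
  linear_combination -(x.2 * x.2 : F) * hθ - (x.2 * x.2 : F) * five (F := F)

theorem nm_eq_zero (hθ : θ * θ = 2) (hσ : σ θ = -θ) {x : K} (h : φ θ x = 0) : nm x = 0 := by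
  have := φ_nm hθ hσ x
  rw [h, zero_mul, eq_comm, CharP.cast_eq_zero_iff F 5] at this
  exact Nat.eq_zero_of_dvd_of_lt this (Nat.mod_lt _ (by norm_num))

theorem φ_hm (hθ : θ * θ = 2) (hσ : σ θ = -θ) (u v : V) :
    stdU (Fin 3) σ (φV θ u) (φV θ v) = φ θ (hm u v) := by
  simp [stdU_apply, Fin.sum_univ_three, φV, hm, dt, φ_ad, φ_ml hθ, φ_cj hσ]

theorem φ_sm (hθ : θ * θ = 2) (c : K) (v : V) : φV θ (sm c v) = φ θ c • φV θ v := by
  ext i; fin_cases i <;> simp [φV, sm, φ_ml hθ]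

theorem exists_su (hB : IsEps (stdU (Fin 3) σ) 1) (hθ : θ * θ = 2) (hσ : σ θ = -θ)
    {M : V × V × V} (h : IsSU M) :
    ∃ g : SUb (stdU (Fin 3) σ), ∀ v, suAct _ g (φV θ v) = φV θ (ap M v) := by
  let A : Matrix (Fin 3) (Fin 3) F := of ![φV θ M.1, φV θ M.2.1, φV θ M.2.2]
  obtain ⟨h1, h2, h3, h4, h5, h6, h7, h8, h9, h10⟩ := h
  have e1 : A * (A.map σ)ᵀ = 1 := by
    ext i j
    have : (A * (A.map σ)ᵀ) i j = stdU (Fin 3) σ (![φV θ M.1, φV θ M.2.1, φV θ M.2.2] i)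
      (![φV θ M.1, φV θ M.2.1, φV θ M.2.2] j) := rfl
    rw [this]
    fin_cases i <;> fin_cases j <;> simp [φ_hm hθ hσ, h1, h2, h3, h4, h5, h6, h7, h8, h9, φ]
  have e2 : Aᵀ * A.map σ = 1 := by
    rw [mul_eq_one_comm] at e1
    simpa using congrArg transpose e1
  have e3 : A.det = 1 := by
    have := congrArg (φ θ) h10
    simp only [dt, cr, φ_ad, φ_ml hθ] at this
    simp only [det_fin_three, A, φV]
    simp [show φ θ (4, 0) = -1 by simp [φ]; linear_combination five (F := F),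
      show φ θ (1, 0) = 1 by simp [φ]] at this ⊢
    linear_combination this
  refine ⟨⟨hB.toIsom (toLin' A) (stdU_pres_iff.2 e2), ?_⟩, fun v => ?_⟩
  · change LinearMap.det (toLin' A) = 1
    rw [LinearMap.det_toLin', e3]
  · change A *ᵥ _ = _
    ext i
    fin_cases i <;> simp [A, φV, ap, dt, φ_ad, φ_ml hθ, mulVec, dotProduct, Fin.sum_univ_three]

theorem exists_index [Fintype F] (hU : UF σ 5) : ∃ K : Subgroup (SUb (stdU (Fin 3) σ)),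
    Zs _ ≤ K ∧ K ≠ ⊤ ∧ 7560 ∣ Nat.card K := by
  have hB := hU.isEps_std (Fin 3)
  have := finite_SUb (stdU (Fin 3) σ)
  obtain ⟨θ, hθ, hσ⟩ : ∃ θ : F, θ * θ = 2 ∧ σ θ = -θ := by
    obtain ⟨c, hc0, hc⟩ := hU.exists_trace_zero
    have h1 : c ^ 4 = -1 := mul_left_cancel₀ hc0 (by rw [hU.apply] at hc; linear_combination hc)
    have h2 : (c * c - 2) * (c * c + 2) = 0 := by linear_combination h1 - five (F := F)
    rcases mul_eq_zero.1 h2 with h | h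
    · exact ⟨c, by linear_combination h, hc⟩
    · exact ⟨2 * c, by linear_combination 4 * h - 2 * five (F := F), by simp [hc, map_ofNat]⟩
  have hv0 : ∀ i < 126, φV θ (vv i) ≠ 0 := fun i hi h =>
    (vv_all i hi).2.elim (fun h1 => h1 (nm_eq_zero hθ hσ (congrFun h 0)))
      fun h1 => h1 (nm_eq_zero hθ hσ (congrFun h 1))
  have hiso : ∀ i < 126, stdU (Fin 3) σ (φV θ (vv i)) (φV θ (vv i)) = 0 := fun i hi => by
    simp [φ_hm hθ hσ, (vv_all i hi).1, φ]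
  have hinj : ∀ i < 126, ∀ j < 126, ∀ c : F, φV θ (vv i) = c • φV θ (vv j) → i = j :=
    fun i hi j hj c hc => hm_all i hi j hj (nm_eq_zero hθ hσ (by
      rw [← φ_hm hθ hσ, hc]; simp [hiso j hj]))
  let X : Set (Fin 3 → F) := {v | ∃ i < 126, ∃ c : F, (c * σ c) ^ 2 = 1 ∧ v = c • φV θ (vv i)}
  let H := stabilizer (SUb (stdU (Fin 3) σ)) X
  have hH : ∀ {g}, g ∈ H ↔ ∀ v ∈ X, suAct _ g v ∈ X := fun {g} =>
    (mem_stabilizer_set_iff_smul_set_subset (Set.toFinite X)).trans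
      ⟨fun h v hv => h ⟨v, hv, rfl⟩, fun h _ ⟨v, hv, e⟩ => e ▸ h v hv⟩
  have gen : ∀ {M L}, IsSU M → Cl M L → ∃ g ∈ H, ∀ i < 126, suAct _ g (φV θ (vv i)) =
      φ θ (L.getD i (0, 0, 0)).2 • φV θ (vv (L.getD i (0, 0, 0)).1) := fun {M L} h1 h2 => by
    obtain ⟨g, hg⟩ := exists_su hB hθ hσ h1
    refine ⟨g, hH.2 ?_, fun i hi => by rw [hg, (h2 i hi).2.1, φ_sm hθ]⟩
    rintro _ ⟨i, hi, c, hc, rfl⟩
    obtain ⟨a1, a2, a3⟩ := h2 i hi
    refine ⟨_, a1, c * φ θ _, ?_, by rw [map_smul, hg, a2, φ_sm hθ, smul_smul]⟩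
    have a4 := congrArg (Nat.cast : ℕ → F) a3
    rw [cast_mod, Nat.cast_mul, ← φ_nm hθ hσ] at a4
    rw [map_mul]
    linear_combination (c * σ c) ^ 2 * a4 + hc
  obtain ⟨u, hu, eu⟩ := gen su_all.1 cl_all.1
  obtain ⟨d, hd, ed⟩ := gen su_all.2.1 cl_all.2.1
  obtain ⟨b, hb, eb⟩ := gen su_all.2.2 cl_all.2.2
  obtain ⟨w, f, h⟩ := exists_fr3 hU hB (by simp) (hv0 0 (by norm_num)) (hiso 0 (by norm_num))
  refine ⟨H, fun g ⟨c, hc⟩ => hH.2 ?_, fun ht => ?_, ?_⟩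
  · rintro _ ⟨i, hi, a, ha, rfl⟩
    refine ⟨i, hi, c * a, ?_, by rw [hc, smul_smul]⟩
    rw [map_mul, mul_mul_mul_comm, (h.scalar hc).2, one_mul, ha]
  · obtain ⟨a, ha⟩ := hU.norm_surj (c := 2) (map_ofNat σ 2)
    have ha0 : a ≠ 0 := by
      rintro rfl
      exact one_ne_zero (α := F) (by linear_combination five (F := F) + 2 * ha)
    obtain ⟨g, hg⟩ := su_move_iso hB hU h.dim.ge h.ee h.e0 (e' := a • φV θ (vv 0)) (by simp [h.ee])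
      (smul_ne_zero ha0 h.e0)
    obtain ⟨i, hi, c, hc, e1⟩ := hH.1 (ht ▸ Subgroup.mem_top g) _ ⟨0, by norm_num, 1, by simp, rfl⟩
    rw [one_smul, hg] at e1
    obtain rfl := hinj 0 (by norm_num) i hi (a⁻¹ * c) (by rw [mul_smul, ← e1, inv_smul_smul₀ ha0])
    rw [← smul_left_injective F h.e0 e1, ha] at hc
    exact one_ne_zero (α := F) (by linear_combination 2 * hc - five (F := F))
  let pt : Fin 126 → ℙ F (Fin 3 → F) := fun i => Projectivization.mk F _ (hv0 i i.2)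
  have h1 := card_eq_of_trans H (S := Set.range pt) (x := pt 0) (by
    rintro g hg _ ⟨i, rfl⟩
    obtain ⟨j, hj, c, -, e1⟩ := hH.1 hg _ ⟨i, i.2, 1, by simp, rfl⟩
    exact ⟨⟨j, hj⟩, (smul_mk_eq.2 ⟨c, by simpa using e1⟩).symm⟩) ⟨0, rfl⟩ (by
    rintro _ ⟨⟨i, hi⟩, rfl⟩
    induction i using Nat.strong_induction_on with
    | _ i ih =>
      rcases tree i hi with rfl | ⟨j, hj, e1⟩
      · exact ⟨1, H.one_mem, one_smul _ _⟩
      obtain ⟨g, hg, e2⟩ := ih j hj (hj.trans hi)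
      rcases e1 with rfl | rfl | rfl
      · exact ⟨u * g, H.mul_mem hu hg, by
          rw [mul_smul, e2]; exact smul_mk_eq.2 ⟨_, eu j (hj.trans hi)⟩⟩
      · exact ⟨d * g, H.mul_mem hd hg, by
          rw [mul_smul, e2]; exact smul_mk_eq.2 ⟨_, ed j (hj.trans hi)⟩⟩
      · exact ⟨b * g, H.mul_mem hb hg, by
          rw [mul_smul, e2]; exact smul_mk_eq.2 ⟨_, eb j (hj.trans hi)⟩⟩)
  rw [Set.ncard_range_of_injective (fun i j hij => by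
    obtain ⟨c, hc⟩ := (mk_eq_mk_iff' _ _ _ _ _).1 hij
    exact Fin.ext (hinj _ i.2 _ j.2 c hc.symm)), Nat.card_fin] at h1
  rw [h1, show pt 0 = Projectivization.mk F _ h.e0 from rfl, h.card_stab1]
  refine mul_dvd_mul_left 126 (mul_dvd_mul (a := 12) (c := 5) ?_ ?_)
  · have e1 := ed 0 (by norm_num)
    have e2 : φ θ (4, 1) = θ - 1 := by simp [φ]; linear_combination five (F := F)
    change _ = φ θ (4, 1) • φV θ (vv 0) at e1
    rw [e2] at e1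
    have e3 := orderOf_dvd_natCard
      (⟨Units.mk0 _ (h.stab e1).1, mem_Dg.2 ⟨d, hd, e1⟩⟩ : Dg H (φV θ (vv 0)))
    rw [Subgroup.orderOf_mk, ← orderOf_units, Units.val_mk0] at e3
    have e4 : (θ - 1) ^ 3 = -2 := by linear_combination (θ - 3) * hθ + (θ - 1) * five (F := F)
    rwa [orderOf_eq_of_pow_and_pow_div_prime (n := 12) (by norm_num) (by
      rw [show 12 = 3 * 4 from rfl, pow_mul, e4]; linear_combination 3 * five (F := F))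
      fun p hp hp' => ?_] at e3
    obtain rfl | rfl : p = 2 ∨ p = 3 := by
      rcases (hp.dvd_mul (m := 2 ^ 2) (n := 3)).1 hp' with h | h
      exacts [Or.inl ((Nat.prime_dvd_prime_iff_eq hp Nat.prime_two).1 (hp.dvd_of_dvd_pow h)),
        Or.inr ((Nat.prime_dvd_prime_iff_eq hp Nat.prime_three).1 h)]
    · rw [show 12 / 2 = 3 * 2 from rfl, pow_mul, e4]
      exact fun e => one_ne_zero (α := F) (by linear_combination 2 * e - five (F := F))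
    · rw [show 12 / 3 = 3 + 1 from rfl, pow_succ, e4]
      exact fun e => one_ne_zero (α := F) (by
        linear_combination (2 * θ + 1) * 2 * e + 8 * hθ + 3 * five (F := F))
  · obtain ⟨i, -, hi⟩ := (Nat.dvd_prime_pow Nat.prime_five).1 (h.card_dvd_cube hU
      (K := H ⊓ stabilizer _ (φV θ (vv 0))) fun _ hg => hg.2)
    refine hi ▸ dvd_pow_self 5 ?_
    rintro rfl
    have e1 : u = 1 := Subgroup.mem_bot.1 (Subgroup.card_eq_one.1 hi ▸ ⟨hu, by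
      have := eu 0 (by norm_num)
      change _ = φ θ (1, 0) • φV θ (vv 0) at this
      simpa [φ, su_smul] using this⟩)
    have e2 := eu 1 (by norm_num)
    rw [e1, map_one] at e2
    exact absurd (hinj 1 (by norm_num) 2 (by norm_num) _ e2) (by norm_num)

end Cfsg.Agent.H5.A7
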